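import Cfsg.Agent.L.Fz0
import Cfsg.Agent.S0407
import Cfsg.Agent.S0363
import Cfsg.Agent.S0369

/-!
Part S of S5446: the octads of the even code defined by `τ` form the Steiner system, so `M` acts through `M₂₄`.
-/

set_option autoImplicit false

namespace H25.Fz
open Finset
open scoped Pointwise

section core
variable {Ω : Type*} [DecidableEq Ω] {X : Type*} [CommGroup X] {g : Ω → X} {D : Set X}

theorem four (sq : ∀ x : X, x * x = 1) (S : Finset Ω) (c : S.card = 4) :
    ∃ i j k l, i ≠ j ∧ i ≠ k ∧ i ≠ l ∧ j ≠ k ∧ j ≠ l ∧ k ≠ l ∧ ∏ x ∈ S, g x = g i * g j * (g k * g l) := by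
  obtain ⟨T, hT, cT⟩ := exists_subset_card_eq (show 2 ≤ S.card by omega)
  obtain ⟨i, j, ij, e⟩ := card_eq_two.1 (show (S \ T).card = 2 by rw [card_sdiff_of_subset hT]; omega)
  obtain ⟨k, l, kl, rfl⟩ := card_eq_two.1 cT
  have hi : i ∈ S \ {k, l} := by simp [e]
  have hj : j ∈ S \ {k, l} := by simp [e]
  simp only [mem_sdiff, mem_insert, mem_singleton, not_or] at hi hj
  exact ⟨i, j, k, l, ij, hi.2.1, hi.2.2, hj.2.1, hj.2.2, kl, by rw [← prod_sdiff hT, e, prod_pair ij, prod_pair kl]⟩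

theorem wt (sq : ∀ x : X, x * x = 1) (m : ∀ i j, i ≠ j → g i * g j ∈ D) (o : (1 : X) ∉ D)
    (n : ∀ i j k l, i ≠ j → i ≠ k → i ≠ l → j ≠ k → j ≠ l → k ≠ l → g i * g j * (g k * g l) ∉ D ∧ g i * g j * (g k * g l) ≠ 1)
    (S : Finset Ω) (ev : S.card % 2 = 0) (lt : S.card < 8) (e : ∏ x ∈ S, g x = 1) : S.card = 0 := by
  obtain c | c | c | c : S.card = 0 ∨ S.card = 2 ∨ S.card = 4 ∨ S.card = 6 := by omega
  · exact c
  · obtain ⟨i, j, ij, rfl⟩ := card_eq_two.1 c
    rw [prod_pair ij] at e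
    exact (o (e ▸ m i j ij)).elim
  · obtain ⟨i, j, k, l, a1, a2, a3, a4, a5, a6, r⟩ := four (g := g) sq S c
    exact ((n i j k l a1 a2 a3 a4 a5 a6).2 (r ▸ e)).elim
  · obtain ⟨T, hT, cT⟩ := exists_subset_card_eq (show 2 ≤ S.card by omega)
    obtain ⟨i, j, k, l, a1, a2, a3, a4, a5, a6, r⟩ := four (g := g) sq (S \ T) (by rw [card_sdiff_of_subset hT]; omega)
    obtain ⟨a, b, ab, rfl⟩ := card_eq_two.1 cT
    rw [← prod_sdiff hT, r, prod_pair ab, ← sq (g a * g b), mul_left_inj] at e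
    exact ((n i j k l a1 a2 a3 a4 a5 a6).1 (e ▸ m a b ab)).elim

theorem sd (sq : ∀ x : X, x * x = 1) (S T : Finset Ω) (e : ∏ x ∈ S, g x = ∏ x ∈ T, g x) : ∏ x ∈ S \ T ∪ T \ S, g x = 1 := by
  rw [← prod_inter_mul_prod_diff S T, ← prod_inter_mul_prod_diff T S, inter_comm T S, mul_right_inj] at e
  rw [prod_union disjoint_sdiff_sdiff, e, sq]

theorem st [Fintype Ω] [Finite X] (c : Fintype.card Ω = 24) (cX : Nat.card X = 2048) (sq : ∀ x : X, x * x = 1)
    (w : ∀ S : Finset Ω, S.card % 2 = 0 → S.card < 8 → ∏ x ∈ S, g x = 1 → S.card = 0) :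
    Cfsg.IsSteinerSystem 5 8 {S : Finset Ω | S.card = 8 ∧ ∏ x ∈ S, g x = 1} := by
  classical
  have := Fintype.ofFinite X
  have k : ∀ S T : Finset Ω, ∏ x ∈ S, g x = ∏ x ∈ T, g x → (S.card + T.card) % 2 = 0 → S.card + T.card < 8 + 2 * (S ∩ T).card →
      S = T := fun S T e ev lt => by
    have a := card_sdiff_add_card_inter S T
    have b := card_sdiff_add_card_inter T S
    rw [inter_comm T S] at b
    have d := card_union_of_disjoint (disjoint_sdiff_sdiff (x := S) (y := T))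
    have := w _ (by omega) (by omega) (sd sq S T e)
    exact subset_antisymm (sdiff_eq_empty_iff_subset.1 (card_eq_zero.1 (by omega))) (sdiff_eq_empty_iff_subset.1 (card_eq_zero.1 (by omega)))
  let U : Finset (Finset Ω) := powersetCard 1 univ ∪ powersetCard 3 univ
  have mU : ∀ S, S ∈ U ↔ S.card = 1 ∨ S.card = 3 := fun S => by simp [U]
  have cU : U.card = 2048 := by
    rw [card_union_of_disjoint (disjoint_left.2 fun S a b => by simp at a b; omega), card_powersetCard, card_powersetCard, card_univ, c]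
    rfl
  have iU : (U.image fun S => ∏ x ∈ S, g x) = univ := eq_univ_of_card _ (by
    rw [card_image_of_injOn fun S a T b e => k S T e ?_ ?_, cU, ← cX, Nat.card_eq_fintype_card] <;>
      (have := (mU S).1 a; have := (mU T).1 b; omega))
  refine ⟨fun b hb => hb.1, fun s hs => ?_⟩
  obtain ⟨T, hT, e⟩ := mem_image.1 (iU ▸ mem_univ (∏ x ∈ s, g x))
  have cT := (mU T).1 hT
  have ne : ¬ (T.card + s.card < 8 + 2 * (T ∩ s).card) := fun lt => by
    have := congrArg card (k T s e (by omega) lt)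
    omega
  have dj : Disjoint T s := disjoint_iff_inter_eq_empty.2 (card_eq_zero.1 (by omega))
  have u : ∀ b b' : Finset Ω, (b.card = 8 ∧ ∏ x ∈ b, g x = 1) ∧ s ⊆ b → (b'.card = 8 ∧ ∏ x ∈ b', g x = 1) ∧ s ⊆ b' → b = b' :=
    fun b b' h h' => k b b' (h.1.2.trans h'.1.2.symm) (by omega) (by
      have := card_le_card (subset_inter h.2 h'.2)
      omega)
  have x : ((T ∪ s).card = 8 ∧ ∏ x ∈ T ∪ s, g x = 1) ∧ s ⊆ T ∪ s :=
    ⟨⟨by rw [card_union_of_disjoint dj]; omega, by rw [prod_union dj, e, sq]⟩, subset_union_right⟩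
  exact ⟨_, x, fun b hb => u _ _ hb x⟩

theorem tp {β : Type*} [DecidableEq β] [Finite Ω] (e : Ω ≃ β) (B : Set (Finset Ω)) (σ : Equiv.Perm Ω) (h : ∀ S ∈ B, S.image σ ∈ B) :
    e.permCongr σ ∈ Cfsg.setSystemAut ((fun b => b.image e) '' B) := by
  have := Finite.of_equiv _ e
  refine MulAction.mem_stabilizer_iff.2 (Set.eq_of_subset_of_ncard_le ?_ (Set.ncard_smul_set _ _).ge)
  rintro _ ⟨_, ⟨S, hS, rfl⟩, rfl⟩
  refine ⟨_, h S hS, ?_⟩
  simp only [smul_finset_def, image_image]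
  congr 1
  ext x
  simp

end core

universe u

theorem s : L.Fz.SStmt.{u} := by
  intro G _ _ A M B D z Ω τ σ h _ t
  classical
  have : Finite Ω := Nat.finite_of_card_ne_zero (by rw [t.card]; decide)
  have := Fintype.ofFinite Ω
  have c : Fintype.card Ω = 24 := by rw [← Nat.card_eq_fintype_card, t.card]
  obtain ⟨o⟩ : Nonempty Ω := Fintype.card_pos_iff.1 (by omega)
  have sq : ∀ x : A, x * x = 1 := fun x => Subtype.ext (h.sq _ x.2)
  letI : CommGroup A := { (inferInstance : Group A) with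
    mul_comm := fun a b => by
      rw [← inv_eq_of_mul_eq_one_right (sq (a * b)), mul_inv_rev, inv_eq_of_mul_eq_one_right (sq a), inv_eq_of_mul_eq_one_right (sq b)] }
  have mA : ∀ i j, τ i j ∈ A := fun i j => by
    by_cases e : i = j
    · rw [e, t.refl]; exact one_mem _
    · exact (h.DA _ (t.mem i j e)).1
  let g : Ω → A := fun i => ⟨τ o i, mA o i⟩
  have gg : ∀ i j, (g i * g j).1 = τ i j := fun i j => by
    show τ o i * τ o j = _
    rw [t.symm o i, t.mul]
  have S := st (g := g) c h.cA sq (wt (D := {x : A | x.1 ∈ D}) sq (fun i j e => by show (g i * g j).1 ∈ D; rw [gg]; exact t.mem i j e)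
    (fun e => (h.DA _ e).2 rfl) fun i j k l a1 a2 a3 a4 a5 a6 => ⟨fun e => t.non i j k l a1 a2 a3 a4 a5 a6 (by rw [← gg, ← gg k]; exact e),
      fun e => by
        rw [← sq (g k * g l), mul_left_inj] at e
        rcases t.inj i j k l a1 (by rw [← gg, e, gg]) with r | r
        exacts [a2 r.1, a3 r.1]⟩)
  obtain ⟨e, he⟩ := Cfsg.Agent.S0407.result c (by decide) S Cfsg.Agent.S0363.result
  refine ⟨e, fun m => ?_⟩
  rw [Cfsg.Agent.S0369.result, ← he]
  refine tp e _ _ fun S hS => ⟨by rw [card_image_of_injective _ (σ m).injective, hS.1], ?_⟩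
  let φ : A →* A := MonoidHom.mk' (fun x => ⟨m * x * (m : G)⁻¹, h.nM _ m.2 _ x.2⟩) fun a b => Subtype.ext (by simp)
  have p : ∀ i, φ (g i) = g (σ m o) * g (σ m i) := fun i => Subtype.ext (by rw [gg]; exact t.act m o i)
  have := congrArg φ hS.2
  rw [map_prod, map_one, prod_congr rfl fun i _ => p i, prod_mul_distrib, prod_const, hS.1, show 8 = 2 * 4 from rfl, pow_mul, pow_two, sq,
    one_pow, one_mul] at this
  rw [prod_image fun a _ b _ => fun e => (σ m).injective e, this]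

end H25.Fz
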