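import Mathlib

/-!
# Sylow 2-subgroups of type `G₂(q)`: the model group (helper25)

`W R` is `(R × R) ⋊ ⟨u, s⟩` with `u` inverting and `s` swapping; for `R = ZMod (2 ^ n)` it is a Sylow 2-subgroup of `G₂(q)`.
-/

set_option autoImplicit false

namespace H25.GT

/-- the model group -/
@[ext] structure W (R : Type) where
  i : R
  j : R
  e : Bool
  d : Bool

variable {R : Type} [CommRing R]

/-- the sign -/
def sg (e : Bool) : R := cond e (-1) 1
@[simp] theorem sg_t : (sg true : R) = -1 := rfl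
@[simp] theorem sg_f : (sg false : R) = 1 := rfl

instance : Mul (W R) := ⟨fun x y => ⟨x.i + sg x.e * cond x.d y.j y.i, x.j + sg x.e * cond x.d y.i y.j, xor x.e y.e, xor x.d y.d⟩⟩
instance : One (W R) := ⟨⟨0, 0, false, false⟩⟩
instance : Inv (W R) := ⟨fun x => ⟨-(sg x.e * cond x.d x.j x.i), -(sg x.e * cond x.d x.i x.j), x.e, x.d⟩⟩

theorem mul_mk (i j k l : R) (e d e' d' : Bool) : (⟨i, j, e, d⟩ : W R) * ⟨k, l, e', d'⟩ =
    ⟨i + sg e * cond d l k, j + sg e * cond d k l, xor e e', xor d d'⟩ := rfl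
theorem one_mk : (1 : W R) = ⟨0, 0, false, false⟩ := rfl
theorem inv_mk (i j : R) (e d : Bool) : (⟨i, j, e, d⟩ : W R)⁻¹ = ⟨-(sg e * cond d j i), -(sg e * cond d i j), e, d⟩ := rfl

instance : Group (W R) := Group.ofLeftAxioms
  (by rintro ⟨i, j, _ | _, _ | _⟩ ⟨k, l, _ | _, _ | _⟩ ⟨a, b, _ | _, _ | _⟩ <;> simp [mul_mk] <;> constructor <;> ring)
  (by rintro ⟨i, j, e, d⟩; simp [mul_mk, one_mk])
  (by rintro ⟨i, j, _ | _, _ | _⟩ <;> simp [mul_mk, one_mk, inv_mk])

theorem mul_e (x y : W R) : (x * y).e = xor x.e y.e := rfl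
theorem mul_d (x y : W R) : (x * y).d = xor x.d y.d := rfl

/-- coordinates -/
def W.equiv : W R ≃ R × R × Bool × Bool := ⟨fun x => (x.i, x.j, x.e, x.d), fun x => ⟨x.1, x.2.1, x.2.2.1, x.2.2.2⟩, fun _ => rfl, fun _ => rfl⟩

theorem card_W : Nat.card (W R) = 4 * Nat.card R ^ 2 := by
  rw [Nat.card_congr W.equiv]; simp only [Nat.card_prod]; rw [Nat.card_eq_fintype_card (α := Bool), Fintype.card_bool]; ring

/-- arithmetic of `ZMod (2 ^ n)` with `q = 2 ^ (n - 2)` -/
structure Ar (q : R) : Prop where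
  h1 : ∀ x : R, 2 * x = 0 → x = 0 ∨ x = 2 * q
  h4 : 4 * q = 0
  h2 : 2 * q ≠ 0
  par : ∀ x : R, ∃ y, x = 2 * y ∨ x = 2 * y + 1

theorem cj {x y : W R} (g : W R) (h : g * x = y * g) : IsConj x y := isConj_iff.2 ⟨g, by rw [h, mul_inv_cancel_right]⟩

namespace Ar
variable {q : R} (a : Ar q)
include a

theorem odd (x : R) : 2 * x ≠ 1 := fun e => a.h2 (by linear_combination x * a.h4 - 2 * q * e)
theorem one : (1 : R) ≠ 0 := fun e => a.h2 (by linear_combination 2 * q * e)
theorem two : (2 : R) ≠ 0 := fun e => a.h2 (by linear_combination q * e)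

theorem zc (w : W R) : w * ⟨2 * q, 2 * q, false, false⟩ = ⟨2 * q, 2 * q, false, false⟩ * w := by
  have := a.h4
  obtain ⟨i, j, _ | _, _ | _⟩ := w <;> simp only [mul_mk, W.mk.injEq, sg_t, sg_f, cond, Bool.xor_false, Bool.false_xor, and_true] <;>
    constructor <;> first | ring1 | linear_combination -this

theorem c00 {w : W R} (h : w * w = 1) (he : w.e = false) (hd : w.d = false) :
    w = 1 ∨ w = ⟨2 * q, 2 * q, false, false⟩ ∨ IsConj w ⟨2 * q, 0, false, false⟩ := by
  obtain ⟨i, j, e, d⟩ := w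
  obtain rfl : e = false := he
  obtain rfl : d = false := hd
  simp only [mul_mk, one_mk, W.mk.injEq, sg_f, cond, one_mul, ← two_mul] at h
  obtain rfl | rfl := a.h1 _ h.1 <;> obtain rfl | rfl := a.h1 _ h.2.1
  exacts [.inl rfl, .inr (.inr (cj ⟨0, 0, false, true⟩ (by simp [mul_mk]))), .inr (.inr (IsConj.refl _)), .inr (.inl rfl)]

theorem c10 {w : W R} (he : w.e = true) (hd : w.d = false) :
    IsConj w ⟨0, 0, true, false⟩ ∨ IsConj w ⟨1, 0, true, false⟩ ∨ IsConj w ⟨1, 1, true, false⟩ := by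
  obtain ⟨i, j, e, d⟩ := w
  obtain rfl : e = true := he
  obtain rfl : d = false := hd
  obtain ⟨k, rfl | rfl⟩ := a.par i <;> obtain ⟨l, rfl | rfl⟩ := a.par j
  · exact .inl (cj ⟨-k, -l, false, false⟩ (by simp [mul_mk]; constructor <;> ring))
  · exact .inr (.inl (cj ⟨-l, -k, false, true⟩ (by simp [mul_mk]; constructor <;> ring)))
  · exact .inr (.inl (cj ⟨-k, -l, false, false⟩ (by simp [mul_mk]; constructor <;> ring)))
  · exact .inr (.inr (cj ⟨-k, -l, false, false⟩ (by simp [mul_mk]; constructor <;> ring)))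

omit a in
theorem c01 {w : W R} (h : w * w = 1) (he : w.e = false) (hd : w.d = true) : IsConj w ⟨0, 0, false, true⟩ := by
  obtain ⟨i, j, e, d⟩ := w
  obtain rfl : e = false := he
  obtain rfl : d = true := hd
  simp only [mul_mk, one_mk, W.mk.injEq, sg_f, cond, one_mul] at h
  exact cj ⟨-i, 0, false, false⟩ (by simp [mul_mk]; linear_combination h.1)

omit a in
theorem c11 {w : W R} (h : w * w = 1) (he : w.e = true) (hd : w.d = true) : IsConj w ⟨0, 0, true, true⟩ := by
  obtain ⟨i, j, e, d⟩ := w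
  obtain rfl : e = true := he
  obtain rfl : d = true := hd
  simp only [mul_mk, one_mk, W.mk.injEq, sg_t, cond] at h
  exact cj ⟨-i, 0, false, false⟩ (by simp [mul_mk]; linear_combination h.2.1)

theorem cau {w : W R} (h : w * ⟨1, 0, true, false⟩ = ⟨1, 0, true, false⟩ * w) (he : w.e = true) : IsConj w ⟨1, 0, true, false⟩ := by
  obtain ⟨i, j, e, d⟩ := w
  obtain rfl : e = true := he
  cases d <;> simp only [mul_mk, W.mk.injEq, sg_t, cond] at h
  · obtain rfl | rfl := a.h1 j (by linear_combination h.2.1)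
    all_goals obtain h1 | h1 := a.h1 (i - 1) (by linear_combination h.1)
    · exact cj ⟨0, 0, false, false⟩ (by simp [mul_mk]; linear_combination h1)
    · exact cj ⟨-q, 0, false, false⟩ (by simp [mul_mk]; linear_combination h1)
    · exact cj ⟨0, -q, false, false⟩ (by simp [mul_mk]; constructor; linear_combination h1; ring)
    · exact cj ⟨-q, -q, false, false⟩ (by simp [mul_mk]; constructor; linear_combination h1; ring)
  · exact (a.odd i (by linear_combination h.1)).elim

omit a in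
theorem cs {w : W R} (h : w * ⟨0, 0, false, true⟩ = ⟨0, 0, false, true⟩ * w) : ∃ i, w * w = ⟨2 * i, 2 * i, false, false⟩ := by
  obtain ⟨i, j, _ | _, _ | _⟩ := w <;> simp only [mul_mk, W.mk.injEq, sg_t, sg_f, cond] at h ⊢
  · exact ⟨i, by ring, by linear_combination -2 * h.1, rfl, rfl⟩
  · exact ⟨i, by linear_combination -h.1, by linear_combination -h.1, rfl, rfl⟩
  · exact ⟨0, by ring, by ring, rfl, rfl⟩
  · exact ⟨0, by linear_combination h.1, by linear_combination -h.1, rfl, rfl⟩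

theorem pm {i : R} (h : 4 * i = 0) (h' : 2 * i ≠ 0) : i = q ∨ i = -q := by
  obtain h1 | h1 := a.h1 (2 * i) (by linear_combination h)
  · exact (h' h1).elim
  obtain h2 | h2 := a.h1 (i - q) (by linear_combination h1)
  exacts [.inl (by linear_combination h2), .inr (by linear_combination h2 + a.h4)]

theorem nrm {w : W R} (h2 : w * w ≠ 1) (h4 : w * w * (w * w) = 1) (h : ∀ y : W R, y * w * y⁻¹ = w ∨ y * w * y⁻¹ = w⁻¹) :
    (w = ⟨q, q, false, false⟩ ∨ w = (⟨q, q, false, false⟩ : W R)⁻¹) ∨ w = ⟨q, -q, false, false⟩ ∨ w = (⟨q, -q, false, false⟩ : W R)⁻¹ := by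
  have h5 := h ⟨1, 0, false, false⟩
  have h6 := h ⟨2, 0, false, false⟩
  have h7 := h ⟨0, 0, false, true⟩
  have k1 := a.one
  have k2 := a.two
  obtain ⟨i, j, _ | _, _ | _⟩ := w <;>
    simp only [mul_mk, one_mk, inv_mk, W.mk.injEq, sg_t, sg_f, cond, Bool.xor_false, Bool.false_xor, Bool.xor_self, and_true, ne_eq,
      not_and_or, Bool.true_xor, Bool.not_true] at h2 h4 h5 h6 h7 ⊢
  · have k : 2 * i ≠ 0 := fun e => by
      obtain h7 | h7 := h7 <;> obtain h2 | h2 := h2
      exacts [h2 (by linear_combination e), h2 (by linear_combination e + 2 * h7.1), h2 (by linear_combination e),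
        h2 (by linear_combination -e + 2 * h7.1)]
    obtain h8 | h8 := a.pm (by linear_combination h4.1) k <;> obtain h7 | h7 := h7
    · exact .inl (.inl ⟨h8, by linear_combination h8 + h7.1⟩)
    · exact .inr (.inl ⟨h8, by linear_combination h7.1 - h8⟩)
    · exact .inl (.inr ⟨by linear_combination h8, by linear_combination h8 + h7.1⟩)
    · exact .inr (.inr ⟨by linear_combination h8, by linear_combination h7.1 - h8⟩)
  · exfalso
    obtain h5 | h5 := h5
    · exact k1 (by linear_combination h5.1)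
    obtain h6 | h6 := h6
    exacts [k2 (by linear_combination h6.1), k1 (by linear_combination h6.1 - h5.1)]
  · obtain h2 | h2 := h2 <;> exact (h2 (by ring)).elim
  · exfalso
    obtain h5 | h5 := h5
    · exact k1 (by linear_combination h5.1)
    obtain h6 | h6 := h6
    exacts [k2 (by linear_combination h6.1), k1 (by linear_combination h6.1 - h5.1)]

omit a in
theorem n1 (i : R) (y : W R) : y * ⟨i, i, false, false⟩ * y⁻¹ = ⟨i, i, false, false⟩ ∨
    y * ⟨i, i, false, false⟩ * y⁻¹ = (⟨i, i, false, false⟩ : W R)⁻¹ := by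
  obtain ⟨k, l, _ | _, _ | _⟩ := y
  exacts [.inl (by simp [mul_mk, inv_mk]), .inl (by simp [mul_mk, inv_mk]), .inr (by simp [mul_mk, inv_mk]), .inr (by simp [mul_mk, inv_mk])]

omit a in
theorem n2 (i : R) (y : W R) : y * ⟨i, -i, false, false⟩ * y⁻¹ = ⟨i, -i, false, false⟩ ∨
    y * ⟨i, -i, false, false⟩ * y⁻¹ = (⟨i, -i, false, false⟩ : W R)⁻¹ := by
  obtain ⟨k, l, _ | _, _ | _⟩ := y
  exacts [.inl (by simp [mul_mk, inv_mk]), .inr (by simp [mul_mk, inv_mk]), .inr (by simp [mul_mk, inv_mk]), .inl (by simp [mul_mk, inv_mk])]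

end Ar

theorem ar_zmod (n : ℕ) : Ar ((2 : ZMod (2 ^ (n + 2))) ^ n) where
  h1 x h := by
    obtain h1 | h1 := (ZMod.neg_eq_self_iff x).1 (by linear_combination -h)
    · exact .inl h1
    · refine .inr ?_
      have : x.val = 2 * 2 ^ n := by have : 2 ^ (n + 2) = 2 * (2 * 2 ^ n) := by ring
                                     omega
      rw [← ZMod.natCast_zmod_val x, this]; push_cast; rfl
  h4 := by
    have : ((2 ^ (n + 2) : ℕ) : ZMod (2 ^ (n + 2))) = 0 := ZMod.natCast_self _
    push_cast at this; linear_combination this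
  h2 e := by
    have : ((2 ^ (n + 1) : ℕ) : ZMod (2 ^ (n + 2))) = 0 := by push_cast; linear_combination e
    rw [ZMod.natCast_eq_zero_iff] at this
    exact absurd (Nat.le_of_dvd (by positivity) this) (not_le.2 (Nat.pow_lt_pow_right one_lt_two (by omega)))
  par x := by
    obtain ⟨y, h | h⟩ := x.val.even_or_odd'
    · exact ⟨y, .inl (by rw [← ZMod.natCast_zmod_val x, h]; push_cast; rfl)⟩
    · exact ⟨y, .inr (by rw [← ZMod.natCast_zmod_val x, h]; push_cast; rfl)⟩

/-- the subgroup `⟨A, s⟩` -/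
def M1 : Subgroup (W R) where
  carrier := {x | x.e = false}
  one_mem' := rfl
  mul_mem' {x y} hx hy := by simp only [Set.mem_setOf_eq, mul_e] at *; rw [hx, hy]; rfl
  inv_mem' h := h

/-- the subgroup `⟨A, u s⟩` -/
def M2 : Subgroup (W R) where
  carrier := {x | x.e = x.d}
  one_mem' := rfl
  mul_mem' {x y} hx hy := by simp only [Set.mem_setOf_eq, mul_e, mul_d] at *; rw [hx, hy]
  inv_mem' h := h

theorem index_M1 : (M1 : Subgroup (W R)).index = 2 := Subgroup.index_eq_two_iff.2 ⟨⟨0, 0, true, false⟩, by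
  rintro ⟨i, j, _ | _, d⟩ <;> simp [M1, ← SetLike.mem_coe, mul_e]⟩

theorem index_M2 : (M2 : Subgroup (W R)).index = 2 := Subgroup.index_eq_two_iff.2 ⟨⟨0, 0, true, false⟩, by
  rintro ⟨i, j, _ | _, _ | _⟩ <;> simp [M2, ← SetLike.mem_coe, mul_e, mul_d]⟩

/-- a homomorphism from the model group, from generators and relations -/
def lift {H : Type*} [Group H] (t : R → R → H) (u s : H) (ht : ∀ i j k l, t (i + k) (j + l) = t i j * t k l)
    (hu : ∀ i j, u * t i j = t (-i) (-j) * u) (hs : ∀ i j, s * t i j = t j i * s) (uu : u * u = 1) (ss : s * s = 1) (us : s * u = u * s) :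
    W R →* H := MonoidHom.mk' (fun x => t x.i x.j * (cond x.e u 1 * cond x.d s 1)) (by
  have h1 (i j) (x : H) : u * (t i j * x) = t (-i) (-j) * (u * x) := by rw [← mul_assoc, hu, mul_assoc]
  have h2 (i j) (x : H) : s * (t i j * x) = t j i * (s * x) := by rw [← mul_assoc, hs, mul_assoc]
  have h3 (x : H) : u * (u * x) = x := by rw [← mul_assoc, uu, one_mul]
  have h4 (x : H) : s * (u * x) = u * (s * x) := by rw [← mul_assoc, us, mul_assoc]
  rintro ⟨i, j, _ | _, _ | _⟩ ⟨k, l, _ | _, _ | _⟩ <;>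
    simp [mul_mk, ht, mul_assoc, h1, h2, h3, h4, hu, hs, uu, ss, us])

theorem lift_apply {H : Type*} [Group H] (t : R → R → H) (u s : H) (ht hu hs uu ss us) (x : W R) :
    lift t u s ht hu hs uu ss us x = t x.i x.j * (cond x.e u 1 * cond x.d s 1) := rfl

end H25.GT
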