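import Mathlib
import Cfsg.Agent.H25.GT1
import Cfsg.Agent.H25.DD1
import Cfsg.Agent.S0215

/-!
# Sylow 2-subgroups of type `G₂(q)`: fusion of involutions (helper25)
-/

set_option autoImplicit false

open Cfsg BG Subgroup H25.DD

namespace H25.GT

universe u

variable {G : Type u} [Group G] [Finite G] {R : Type} [CommRing R]

/-- Burnside: conjugate cyclic normal subgroups of a Sylow subgroup are conjugate in its normalizer -/
theorem burn (S : Sylow 2 G) {x y g : G} (hx : (S : Subgroup G) ≤ N_(zpowers x)) (hy : (S : Subgroup G) ≤ N_(zpowers y))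
    (e : g * x * g⁻¹ = y) : ∃ n : G, (∀ s ∈ (S : Subgroup G), n * s * n⁻¹ ∈ (S : Subgroup G)) ∧ n * x * n⁻¹ ∈ zpowers y := by
  have hS : IsSylowIn 2 (S : Subgroup G) N_(zpowers y) :=
    sylow_of_max Nat.prime_two S.2 hy fun Y h1 h2 _ => S.3 h1 h2
  obtain ⟨k, hk, h⟩ := sylow_Jsub Nat.prime_two hS (X := BG.cj g S) (S.2.map _) (fun a ha => by
    obtain ⟨s, hs, rfl⟩ := mem_cj'.1 ha
    refine mem_norm_of_cj_le fun b hb => ?_
    obtain ⟨c, ⟨m, rfl⟩, rfl⟩ := mem_cj'.1 hb
    obtain ⟨l, hl⟩ := (mem_normalizer_iff.1 (hx hs) (x ^ m)).1 ⟨m, rfl⟩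
    refine ⟨l, ?_⟩
    simp only at hl ⊢
    rw [← e, conj_zpow, conj_zpow, hl]; group)
  refine ⟨k * g, fun s hs => h (mem_cj'.2 ⟨_, mem_cj'.2 ⟨s, hs, rfl⟩, by group⟩), ?_⟩
  have := (mem_normalizer_iff.1 hk y).1 (mem_zpowers y)
  rw [← e] at this ⊢
  simpa [mul_assoc] using this

omit [Finite G] in
theorem nz {x y : G} (h : y * x * y⁻¹ = x ∨ y * x * y⁻¹ = x⁻¹) [Finite G] : y ∈ N_(zpowers x) :=
  mem_norm_of_cj_le fun b hb => by
    obtain ⟨c, ⟨m, rfl⟩, rfl⟩ := mem_cj'.1 hb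
    simp only
    rw [← conj_zpow]
    obtain h | h := h <;> rw [h]
    exacts [zpow_mem (mem_zpowers x) m, zpow_mem (inv_mem (mem_zpowers x)) m]

section
variable (S : Sylow 2 G) {f : W R →* G} (hf : Function.Injective f) (hr : f.range = S) {q : R} (a : Ar q)
include hf hr

omit hf [Finite G] in
theorem mem (w : W R) : f w ∈ (S : Subgroup G) := hr.le ⟨w, rfl⟩

omit [Finite G] in
theorem idx {M : Subgroup (W R)} (h : M.index = 2) : (M.map f).relIndex S = 2 := by
  rw [← hr, MonoidHom.range_eq_map, relIndex_map_map_of_injective _ _ hf, relIndex_top_right, h]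

include a

omit hr [Finite G] in
theorem oz : orderOf (f ⟨2 * q, 2 * q, false, false⟩) = 2 := by
  rw [orderOf_injective f hf]
  refine orderOf_eq_prime ?_ fun e => a.h2 (congrArg W.i e)
  rw [sq]; simp only [mul_mk, one_mk, W.mk.injEq, sg_f, cond, Bool.xor_self, and_true]
  constructor <;> linear_combination a.h4

omit hf [Finite G] in
theorem zc (s : G) (hs : s ∈ (S : Subgroup G)) : s * f ⟨2 * q, 2 * q, false, false⟩ = f ⟨2 * q, 2 * q, false, false⟩ * s := by
  obtain ⟨w, rfl⟩ := hr.ge hs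
  rw [← map_mul, ← map_mul, a.zc]

theorem sq_case {t y : W R} (ht : IsConj (f t) (f ⟨2 * q, 2 * q, false, false⟩)) (h1 : t ≠ ⟨2 * q, 2 * q, false, false⟩)
    (h2 : y * t = t * y) (h3 : y * y = ⟨2 * q, 2 * q, false, false⟩) :
    IsConj (f ⟨2 * q, 2 * q, false, false⟩) (f ⟨2 * q, 0, false, false⟩) := by
  obtain ⟨g, e, hg⟩ := DD.ext S (zc S hr a) ht
  obtain ⟨w, hw⟩ := hr.ge (hg _ (mem S hr y) (by rw [← map_mul, ← map_mul, h2]))
  have k : f (w * w) = g * f ⟨2 * q, 2 * q, false, false⟩ * g⁻¹ := by rw [map_mul, hw, ← DD.cj_mul, ← map_mul, h3]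
  have o := oz hf a
  obtain h | h | h := a.c00 (w := w * w) (hf (by
    rw [map_mul, k, map_one]; exact cj_sq g (by rw [← sq, ← o, pow_orderOf_eq_one]))) (by simp [mul_e]) (by simp [mul_d])
  · rw [h, map_one, eq_comm, mul_inv_eq_one, mul_eq_left] at k
    rw [k, orderOf_one] at o; exact absurd o (by decide)
  · rw [h] at k
    exact (h1 (hf (cj_inj' (e.trans k)))).elim
  · exact (isc g _).trans (k ▸ f.map_isConj h)

theorem au_case (ht : IsConj (f ⟨1, 0, true, false⟩) (f ⟨2 * q, 2 * q, false, false⟩))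
    (h : ∀ w, IsConj (f w) (f ⟨2 * q, 2 * q, false, false⟩) → w = ⟨2 * q, 2 * q, false, false⟩ ∨ IsConj w ⟨1, 0, true, false⟩) :
    IsConj (f ⟨2 * q, 2 * q, false, false⟩) (f ⟨2 * q, 0, false, false⟩) := by
  obtain ⟨g, e, hg⟩ := DD.ext S (zc S hr a) ht
  have h4 := a.h4
  obtain ⟨x, hx⟩ := hr.ge (hg _ (mem S hr ⟨2 * q, 0, false, false⟩) (by
    rw [← map_mul, ← map_mul]; congr 1; simp [mul_mk]; linear_combination h4))
  obtain ⟨y, hy⟩ := hr.ge (hg _ (mem S hr ⟨0, 2 * q, false, false⟩) (by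
    rw [← map_mul, ← map_mul]; congr 1; simp [mul_mk]; linear_combination h4))
  have k : f (x * y) = g * f ⟨2 * q, 2 * q, false, false⟩ * g⁻¹ := by
    rw [map_mul, hx, hy, ← DD.cj_mul, ← map_mul]; simp [mul_mk]
  have c : x * y = y * x := hf (by
    rw [map_mul, map_mul, hx, hy]; exact cj_com g (by rw [← map_mul, ← map_mul]; simp [mul_mk]))
  obtain h1 | h1 := h (x * y) (k ▸ (isc g _).symm)
  · rw [h1] at k
    exact absurd (congrArg W.e (hf (cj_inj' (e.trans k)))) (by simp)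
  obtain ⟨v, hv⟩ := isConj_iff.1 h1
  have k1 : (v * x * v⁻¹) * (v * y * v⁻¹) = ⟨1, 0, true, false⟩ := by rw [← hv]; group
  have k2 := cj_com v c
  have k3 : (v * x * v⁻¹).e = true ∨ (v * y * v⁻¹).e = true := by
    have := congrArg W.e k1
    rw [mul_e] at this
    revert this; cases (v * x * v⁻¹).e <;> simp
  obtain k3 | k3 := k3
  · have := a.cau (by rw [← k1, ← mul_assoc, mul_assoc (v * x * v⁻¹) (v * y * v⁻¹), ← k2, mul_assoc]) k3
    exact (((isc g _).trans (hx ▸ f.map_isConj ((isc v x).trans this))).trans ht).symm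
  · have := a.cau (by rw [← k1, ← mul_assoc, ← k2]) k3
    exact (((isc g _).trans (hy ▸ f.map_isConj ((isc v y).trans this))).trans ht).symm.trans
      (f.map_isConj (cj ⟨0, 0, false, true⟩ (by simp [mul_mk])))

omit [Finite G] in
theorem ncom (h : ∀ g : G, f ⟨2 * q, 2 * q, false, false⟩ * g = g * f ⟨2 * q, 2 * q, false, false⟩) [IsSimpleGroup G] : False := by
  obtain h1 | h1 := (inferInstance : (center G).Normal).eq_bot_or_eq_top
  · have o := oz hf a
    rw [mem_bot.1 (h1.le (mem_center_iff.2 fun g => (h g).symm)), orderOf_one] at o; exact absurd o (by decide)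
  · have := mem_center_iff.1 (h1.ge (mem_top (f ⟨1, 0, false, false⟩))) (f ⟨0, 0, false, true⟩)
    rw [← map_mul, ← map_mul] at this
    exact a.one (by simpa [mul_mk] using (congrArg W.j (hf this)))

theorem noI [IsSimpleGroup G] (H : Subgroup G) : H.index ≠ 2 := fun e => by
  obtain rfl | rfl := (normal_of_index_eq_two e).eq_bot_or_eq_top
  · rw [index_bot] at e
    have : IsCyclic G := isCyclic_of_prime_card e
    exact ncom S hf hr a fun g => IsMulCommutative.is_comm.comm _ _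
  · rw [index_top] at e; exact absurd e (by decide)

theorem ze [IsSimpleGroup G] : IsConj (f ⟨2 * q, 2 * q, false, false⟩) (f ⟨2 * q, 0, false, false⟩) := by
  by_contra h0
  have o := oz hf a
  have h4 := a.h4
  have h : ∀ w, IsConj (f w) (f ⟨2 * q, 2 * q, false, false⟩) → w = ⟨2 * q, 2 * q, false, false⟩ ∨ IsConj w ⟨1, 0, true, false⟩ := by
    intro w hw
    have o1 : orderOf (f w) = 2 := by
      obtain ⟨c, hc⟩ := isConj_iff.1 hw
      rw [← o, ← hc]; exact ((MulAut.conj c).orderOf_eq _).symm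
    have w2 : w * w = 1 := hf (by rw [map_mul, map_one, ← sq, ← o1, pow_orderOf_eq_one])
    have key {t y : W R} (c : IsConj w t) (h1 : t ≠ ⟨2 * q, 2 * q, false, false⟩) (h2 : y * t = t * y)
        (h3 : y * y = ⟨2 * q, 2 * q, false, false⟩) : False := h0 (sq_case S hf hr a ((f.map_isConj c).symm.trans hw) h1 h2 h3)
    cases he : w.e <;> cases hd : w.d
    · obtain h | h | h := a.c00 w2 he hd
      · rw [h, map_one, orderOf_one] at o1; exact absurd o1 (by decide)
      · exact .inl h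
      · exact (h0 (hw.symm.trans (f.map_isConj h))).elim
    · exact (key (y := ⟨q, q, false, false⟩) (Ar.c01 w2 he hd) (by simp) (by simp [mul_mk]) (by simp [mul_mk, two_mul])).elim
    · obtain h | h | h := a.c10 he hd
      · exact (key (y := ⟨2 * q, 0, false, true⟩) h (by simp) (by simp [mul_mk]; linear_combination h4) (by simp [mul_mk])).elim
      · exact .inr h
      · exact (key (y := ⟨2 * q, 0, false, true⟩) h (by simp) (by simp [mul_mk]; linear_combination h4) (by simp [mul_mk])).elim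
    · exact (key (y := ⟨q, -q, false, false⟩) (Ar.c11 w2 he hd) (by simp) (by simp [mul_mk])
        (by simp [mul_mk, two_mul]; linear_combination -h4)).elim
  obtain ⟨N, n, odd, hN⟩ := Cfsg.Agent.S0215.result S _ o (mem S hr _) fun g hg => by
    obtain ⟨w, hw⟩ := hr.ge hg
    have c : IsConj (f w) (f ⟨2 * q, 2 * q, false, false⟩) := hw ▸ (isc g _).symm
    obtain h1 | h1 := h w c
    · rw [← hw, h1]
    · exact (h0 (au_case S hf hr a ((f.map_isConj h1).symm.trans c) h)).elim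
  obtain rfl | rfl := n.eq_bot_or_eq_top
  · exact ncom S hf hr a fun g => by have := mem_bot.1 (hN g); rwa [mul_inv_eq_one, mul_inv_eq_iff_eq_mul] at this
  · rw [card_top] at odd
    exact odd.not_two_dvd_nat (o ▸ orderOf_dvd_natCard _)

theorem tt1 [IsSimpleGroup G] {y : G} (hy : orderOf y = 2) : IsConj y (f ⟨2 * q, 2 * q, false, false⟩) ∨
    ∃ g : G, (∀ s ∈ (S : Subgroup G), s * y = y * s → g * s * g⁻¹ ∈ (S : Subgroup G)) ∧ g * y * g⁻¹ = f ⟨0, 0, false, true⟩ := by
  have y2 : y * y = 1 := by rw [← sq, ← hy, pow_orderOf_eq_one]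
  obtain ⟨g, h1, w, he, hw⟩ := tt (noI S hf hr a) S (idx S hf hr index_M1) y2
  have w2 : w * w = 1 := hf (by rw [map_mul, map_one, hw]; exact cj_sq g y2)
  have c : IsConj y (f w) := hw ▸ isc g y
  cases hd : w.d
  · obtain h | h | h := a.c00 w2 he hd
    · rw [h, map_one, isConj_one_left] at c
      rw [c, orderOf_one] at hy; exact absurd hy (by decide)
    · exact .inl (h ▸ c)
    · exact .inl ((c.trans (f.map_isConj h)).trans (ze S hf hr a).symm)
  · obtain ⟨v, hv⟩ := isConj_iff.1 (Ar.c01 w2 he hd)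
    refine .inr ⟨f v * g, fun s hs hc => ?_, by rw [← hv, map_mul, map_mul, map_inv, hw]; group⟩
    simpa [mul_assoc] using mul_mem (mul_mem (mem S hr v) (h1 s hs hc)) (inv_mem (mem S hr v))

theorem big [IsSimpleGroup G] (h0 : ¬ IsConj (f ⟨0, 0, false, true⟩) (f ⟨2 * q, 2 * q, false, false⟩)) (r : R) : q ≠ 2 * r := fun hq => by
  have h4 := a.h4
  have os (w : W R) (h1 : w * w = 1) (h2 : w ≠ 1) : orderOf (f w) = 2 := by
    rw [orderOf_injective f hf]; exact orderOf_eq_prime (by rw [sq, h1]) h2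
  have s2 : (⟨0, 0, false, true⟩ : W R) * ⟨0, 0, false, true⟩ = 1 := by simp [mul_mk, one_mk]
  -- `s` is conjugate to `u s`
  have c1 : IsConj (f ⟨0, 0, false, true⟩) (f ⟨0, 0, true, true⟩) := by
    have y2 : f ⟨0, 0, false, true⟩ * f ⟨0, 0, false, true⟩ = 1 := by rw [← map_mul, s2, map_one]
    obtain ⟨g, -, w, he, hw⟩ := tt (noI S hf hr a) S (idx S hf hr index_M2) y2
    have w2 : w * w = 1 := hf (by rw [map_mul, map_one, hw]; exact cj_sq g y2)
    have c : IsConj (f ⟨0, 0, false, true⟩) (f w) := hw ▸ isc g _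
    cases hd : w.d
    · obtain h | h | h := a.c00 w2 (he.trans hd) hd
      · rw [h, map_one, isConj_one_left] at c
        exact absurd (congrArg W.d (hf (c.trans (map_one f).symm))) (by simp [one_mk])
      · exact (h0 (h ▸ c)).elim
      · exact (h0 ((c.trans (f.map_isConj h)).trans (ze S hf hr a).symm)).elim
    · exact c.trans (f.map_isConj (Ar.c11 w2 (he.trans hd) hd))
  obtain h | ⟨g, h1, e⟩ := tt1 S hf hr a (os ⟨0, 0, true, true⟩ (by simp [mul_mk, one_mk]) (by simp [one_mk]))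
  · exact h0 (c1.trans h)
  have cr : f ⟨r, -r, false, false⟩ * f ⟨0, 0, true, true⟩ = f ⟨0, 0, true, true⟩ * f ⟨r, -r, false, false⟩ := by
    rw [← map_mul, ← map_mul]; simp [mul_mk]
  obtain ⟨w, hw⟩ := hr.ge (h1 _ (mem S hr _) cr)
  obtain ⟨i, hi⟩ := Ar.cs (w := w) (hf (by rw [map_mul, map_mul, hw, ← e]; exact cj_com g cr))
  have k : g * f ⟨q, -q, false, false⟩ * g⁻¹ = f ⟨2 * i, 2 * i, false, false⟩ := by
    rw [← hi, map_mul, hw, ← DD.cj_mul, ← map_mul, hq]; simp [mul_mk, two_mul]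
  have n1 (i : R) : (S : Subgroup G) ≤ N_(zpowers (f ⟨i, i, false, false⟩)) := fun s hs => by
    obtain ⟨y, rfl⟩ := hr.ge hs
    exact nz (by simpa only [← map_mul, ← map_inv, hf.eq_iff] using Ar.n1 i y)
  have n2 : (S : Subgroup G) ≤ N_(zpowers (f ⟨q, -q, false, false⟩)) := fun s hs => by
    obtain ⟨y, rfl⟩ := hr.ge hs
    exact nz (by simpa only [← map_mul, ← map_inv, hf.eq_iff] using Ar.n2 q y)
  obtain ⟨n, hn, hx⟩ := burn S n2 (n1 _) k
  have hn' := norm_of S hn
  -- the images under `n` of the two special elements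
  have pr {x : W R} (h2 : x * x ≠ 1) (h4 : x * x * (x * x) = 1) (h : ∀ y : W R, y * x * y⁻¹ = x ∨ y * x * y⁻¹ = x⁻¹) :
      ∃ x', f x' = n * f x * n⁻¹ ∧ ((x' = ⟨q, q, false, false⟩ ∨ x' = (⟨q, q, false, false⟩ : W R)⁻¹) ∨ x' = ⟨q, -q, false, false⟩ ∨
        x' = (⟨q, -q, false, false⟩ : W R)⁻¹) := by
    obtain ⟨x', hx'⟩ := hr.ge (hn _ (mem S hr x))
    refine ⟨x', hx', a.nrm (fun e => h2 (hf ?_)) (hf ?_) fun y => ?_⟩
    · have := congrArg f e
      rw [map_mul, hx', ← DD.cj_mul, map_one, mul_inv_eq_one, mul_eq_left] at this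
      rw [map_mul, this, map_one]
    · simp only [map_mul, hx', ← DD.cj_mul]
      simp only [← map_mul, h4]; simp
    · obtain ⟨y', hy'⟩ := hr.ge ((mem_normalizer_iff.1 (inv_mem hn') _).1 (mem S hr y))
      have e1 : f y = n * f y' * n⁻¹ := by rw [hy']; group
      refine (h y').imp (fun e => hf ?_) fun e => hf ?_
      · rw [map_mul, map_mul, map_inv, hx', e1]
        conv_rhs => rw [← e]
        simp only [map_mul, map_inv]; group
      · rw [map_mul, map_mul, map_inv, map_inv, hx', e1, show (n * f x * n⁻¹)⁻¹ = n * f x⁻¹ * n⁻¹ by rw [map_inv]; group, ← e]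
        simp only [map_mul, map_inv]; group
  have d1 (i : R) : zpowers (⟨i, i, false, false⟩ : W R) ≤ C_[(⟨0, 0, false, true⟩ : W R)] :=
    zpowers_le.2 (mem_cent1.2 (by simp [mul_mk]))
  have d2 : (⟨q, -q, false, false⟩ : W R) ∉ C_[(⟨0, 0, false, true⟩ : W R)] := fun h =>
    a.h2 (by have := congrArg W.i (mem_cent1.1 h); simp [mul_mk] at this; linear_combination this)
  obtain ⟨x, hx1, hx2⟩ := pr (x := ⟨q, -q, false, false⟩) (fun e => a.h2 (by have := congrArg W.i e; simp [mul_mk, one_mk] at this; linear_combination this))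
    (by simp [mul_mk, one_mk]; constructor <;> first | linear_combination h4 | linear_combination -h4) (Ar.n2 q)
  obtain ⟨y, hy1, hy2⟩ := pr (x := ⟨q, q, false, false⟩) (fun e => a.h2 (by have := congrArg W.i e; simp [mul_mk, one_mk] at this; linear_combination this))
    (by simp [mul_mk, one_mk]; linear_combination h4) (Ar.n1 q)
  have hx3 : x ∈ C_[(⟨0, 0, false, true⟩ : W R)] := by
    rw [← hx1, ← MonoidHom.map_zpowers, mem_map_iff_mem hf] at hx
    exact d1 _ hx
  have hx4 : x = ⟨q, q, false, false⟩ ∨ x = (⟨q, q, false, false⟩ : W R)⁻¹ :=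
    hx2.resolve_right fun h => d2 (h.elim (fun e => e ▸ hx3) fun e => inv_mem_iff.1 (e ▸ hx3))
  have hy4 : y = ⟨q, -q, false, false⟩ ∨ y = (⟨q, -q, false, false⟩ : W R)⁻¹ := hy2.resolve_left fun h => by
    have : x = y ∨ x = y⁻¹ := by
      obtain rfl | rfl := hx4 <;> obtain rfl | rfl := h <;> simp
    refine d2 (d1 q ?_)
    obtain e | e := this
    · rw [e, hy1] at hx1
      exact hf (cj_inj' hx1) ▸ mem_zpowers _
    · rw [e, map_inv, hy1, show (n * f ⟨q, q, false, false⟩ * n⁻¹)⁻¹ = n * f (⟨q, q, false, false⟩)⁻¹ * n⁻¹ by rw [map_inv]; group] at hx1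
      exact hf (cj_inj' hx1) ▸ inv_mem (mem_zpowers _)
  obtain ⟨-, k, hk, h5, -⟩ := parts S hn'
  have h6 : n ∈ N_(zpowers (f ⟨q, q, false, false⟩)) := mem_of_pows (a := 2) (b := k) (Nat.coprime_two_left.2 hk) (nz (by
    have e1 : n ^ 2 * f ⟨q, q, false, false⟩ * (n ^ 2)⁻¹ = n * f y * n⁻¹ := by rw [hy1, sq]; group
    have e2 : n * f (⟨q, -q, false, false⟩)⁻¹ * n⁻¹ = (f x)⁻¹ := by rw [hx1, map_inv]; group
    rw [e1]
    obtain rfl | rfl := hy4
    · rw [← hx1, ← map_inv]; exact hx4.imp (congrArg f) (congrArg f)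
    · rw [e2]
      obtain rfl | rfl := hx4
      exacts [.inr rfl, .inl (by rw [map_inv, inv_inv])])) (n1 q h5)
  have h7 := (mem_normalizer_iff.1 h6 _).1 (mem_zpowers _)
  rw [← hy1, ← MonoidHom.map_zpowers, mem_map_iff_mem hf] at h7
  exact d2 (hy4.elim (fun e => e ▸ d1 q h7) fun e => inv_mem_iff.1 (e ▸ d1 q h7))

theorem fus [IsSimpleGroup G] : (∀ x y : G, orderOf x = 2 → orderOf y = 2 → IsConj x y) ∨
    ((∀ r, q ≠ 2 * r) ∧ ∃ x y : G, orderOf x = 2 ∧ orderOf y = 2 ∧ ¬ IsConj x y ∧ ∀ z : G, orderOf z = 2 → IsConj z x ∨ IsConj z y) := by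
  have h (y : G) (hy : orderOf y = 2) : IsConj y (f ⟨0, 0, false, true⟩) ∨ IsConj y (f ⟨2 * q, 2 * q, false, false⟩) :=
    (tt1 S hf hr a hy).symm.imp_left fun ⟨g, _, e⟩ => e ▸ isc g y
  by_cases h0 : IsConj (f ⟨0, 0, false, true⟩) (f ⟨2 * q, 2 * q, false, false⟩)
  · exact .inl fun x y hx hy => ((h x hx).elim (·.trans h0) id).trans ((h y hy).elim (·.trans h0) id).symm
  · refine .inr ⟨big S hf hr a h0, _, _, ?_, oz hf a, h0, h⟩
    rw [orderOf_injective f hf]; exact orderOf_eq_prime (by simp [sq, mul_mk, one_mk]) (by simp [one_mk])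

end

end H25.GT
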