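import Mathlib
import Cfsg.Agent.H25.GT1
import Cfsg.Agent.H11.Untw
import Cfsg.Agent.H11.Cent
import Cfsg.Agent.S1059

/-!
# Sylow 2-subgroups of `G₂(q)`, `q` odd: the model group `W (ZMod (2 ^ n))` (helper25)
-/

set_option autoImplicit false

open Cfsg

namespace H25.GT
open H11 Cfsg.Lie StSys G2

theorem inj_of {R : Type} [CommRing R] {q : R} (a : Ar q) {H : Type*} [Group H] (f : W R →* H)
    (h : ∀ i j, f ⟨i, j, false, false⟩ = 1 → i = 0 ∧ j = 0) : Function.Injective f := (injective_iff_map_eq_one f).2 fun w hw => by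
  have k : f (w * ⟨1, 0, false, false⟩ * w⁻¹ * (⟨1, 0, false, false⟩ : W R)⁻¹) = 1 := by simp [hw]
  obtain ⟨i, j, _ | _, _ | _⟩ := w
  · obtain ⟨rfl, rfl⟩ := h i j hw; rfl
  all_goals simp only [mul_mk, inv_mk, cond, Bool.xor_false, Bool.xor_self, sg_t, sg_f] at k
  · exact (a.one (by linear_combination -(h _ _ k).1)).elim
  · exact (a.two (by linear_combination -(h _ _ k).1)).elim
  · exact (a.one (by linear_combination -(h _ _ k).1)).elim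

theorem split {G C : Type*} [Group G] [CommGroup C] (τ : C × C →* G) (hi : Function.Injective τ) {K : Subgroup G}
    (hK : ∀ a b, τ (a, b) ∈ K → τ (a, 1) ∈ K) {x y : G} (hx : x ∈ K) (hy : y ∈ K) (cy : ∀ p, y * τ p * y⁻¹ = τ p⁻¹)
    (cx : ∀ p, x * τ p * x⁻¹ = τ p.swap) (yy : y * y = 1) (xx : x * x ∈ τ.range) (xy : x * y * x⁻¹ * y⁻¹ ∈ τ.range) :
    ∃ u ∈ K, ∃ s ∈ K, (∀ p, u * τ p = τ p⁻¹ * u) ∧ (∀ p, s * τ p = τ p.swap * s) ∧ u * u = 1 ∧ s * s = 1 ∧ s * u = u * s := by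
  have cm (p p') : τ p * τ p' = τ p' * τ p := by rw [← map_mul, ← map_mul, mul_comm]
  have act {g : G} {φ : C × C → C × C} (h : ∀ p, g * τ p * g⁻¹ = τ (φ p)) (l p) : τ l * g * τ p * (τ l * g)⁻¹ = τ (φ p) := by
    rw [show τ l * g * τ p * (τ l * g)⁻¹ = τ l * (g * τ p * g⁻¹) * (τ l)⁻¹ by group, h, cm, mul_inv_cancel_right]
  obtain ⟨⟨l, m⟩, h1⟩ := xx
  obtain rfl : m = l := congrArg Prod.fst (hi (show τ (m, l) = τ (l, m) from (cx (l, m)).symm.trans (by rw [h1]; group)))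
  have cs := act cx (m⁻¹, 1)
  have hs : τ (m⁻¹, 1) * x ∈ K := mul_mem (by
    simpa [← map_inv] using inv_mem (hK m m (h1 ▸ mul_mem hx hx))) hx
  have ss : τ (m⁻¹, 1) * x * (τ (m⁻¹, 1) * x) = 1 := by
    rw [show τ (m⁻¹, 1) * x * (τ (m⁻¹, 1) * x) = τ (m⁻¹, 1) * (x * τ (m⁻¹, 1) * x⁻¹) * (x * x) by group, cx, ← h1, ← map_mul, ← map_mul]
    simp [← Prod.one_eq_mk]
  have sy : τ (m⁻¹, 1) * x * y * (τ (m⁻¹, 1) * x)⁻¹ * y⁻¹ ∈ τ.range := by
    rw [show τ (m⁻¹, 1) * x * y * (τ (m⁻¹, 1) * x)⁻¹ * y⁻¹ = τ (m⁻¹, 1) * (x * y * x⁻¹ * y⁻¹) * (y * τ (m⁻¹, 1) * y⁻¹)⁻¹ by group, cy]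
    exact mul_mem (mul_mem ⟨_, rfl⟩ xy) (inv_mem ⟨_, rfl⟩)
  generalize τ (m⁻¹, 1) * x = s at cs hs ss sy
  obtain ⟨⟨α, β⟩, h2⟩ := sy
  have h3 : s * y * s⁻¹ = τ (α, β) * y := by rw [h2]; group
  have h4 : β * α = 1 := congrArg Prod.fst (hi (show τ ((β, α) * (α, β)) = τ 1 by
    rw [map_mul, map_one, ← Prod.swap_prod_mk, ← cs, h2, show s * (s * y * s⁻¹ * y⁻¹) * s⁻¹ * (s * y * s⁻¹ * y⁻¹) =
      (s * s) * y * (s * s)⁻¹ * s * y⁻¹ * (y * s⁻¹ * y⁻¹) by group, ss]; group))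
  refine ⟨τ (α, 1) * y, mul_mem (hK α β (h2 ▸ mul_mem (mul_mem (mul_mem hs hy) (inv_mem hs)) (inv_mem hy))) hy, s, hs,
    fun p => by rw [← act cy (α, 1) p]; group, fun p => by rw [← cs]; group, ?_, ss, ?_⟩
  · rw [show τ (α, 1) * y * (τ (α, 1) * y) = τ (α, 1) * (y * τ (α, 1) * y⁻¹) * (y * y) by group, cy, yy, ← map_mul]; simp [← Prod.one_eq_mk]
  · rw [← mul_inv_eq_iff_eq_mul, show s * (τ (α, 1) * y) * s⁻¹ = s * τ (α, 1) * s⁻¹ * (s * y * s⁻¹) by group, cs, h3, ← mul_assoc, ← map_mul]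
    simp [mul_comm α, h4]

/-- coordinates on the torus in which the first simple reflection is the swap -/
def cc (C : Type*) [CommGroup C] : C × C →* (Node chevG2 → C) where
  toFun p j := if j.1 = 0 then p.2 else p.1 * p.2
  map_one' := by ext; simp
  map_mul' p p' := by ext j; simp only [Pi.mul_apply, Prod.fst_mul, Prod.snd_mul]; split_ifs; exacts [rfl, mul_mul_mul_comm _ _ _ _]

theorem cc0 {C : Type*} [CommGroup C] (p : C × C) : cc C p (nd _ 0) = p.2 := rfl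
theorem cc1 {C : Type*} [CommGroup C] (p : C × C) : cc C p (nd _ 1) = p.1 * p.2 := rfl

theorem cc_inj (C : Type*) [CommGroup C] : Function.Injective (cc C) := fun p p' e => by
  have h0 : p.2 = p'.2 := congrFun e (nd _ 0)
  have h1 : p.1 * p.2 = p'.1 * p'.2 := congrFun e (nd _ 1)
  rw [h0] at h1
  exact Prod.ext (mul_right_cancel h1) h0

theorem cc_surj (C : Type*) [CommGroup C] : Function.Surjective (cc C) := fun c =>
  ⟨(c (nd _ 1) / c (nd _ 0), c (nd _ 0)), funext (forall_nd.2 ⟨rfl, div_mul_cancel _ _⟩)⟩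

theorem cc_swap {C : Type*} [CommGroup C] (p : C × C) : mact (m2 (-1) 0 1 1) (cc C p) = cc C p.swap :=
  funext (forall_nd.2 ⟨by rw [mact_mk, cc0, cc1, cc0]; simp [nd], by rw [mact_mk, cc0, cc1, cc1]; simp [nd, mul_comm]⟩)

theorem neg_mem' : (-1 : G2.M2) ∈ gW := by decide +kernel

theorem key {Ω G : Type*} [Field Ω] [IsAlgClosed Ω] [Uncountable Ω] [Group G] {S : StSys chevG2 Ω G} {A : S.Gal} {σ : MulAut G} {b : ℤ}
    (T : Tws A σ (b • 1)) {n : ℕ} (hb : (2 ^ (n + 2) : ℕ) ∣ (b - 1).natAbs) (hb0 : b ≠ 0) (h2 : (2 : Ω) ≠ 0) :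
    ∃ f : W (ZMod (2 ^ (n + 2))) →* G, Function.Injective f ∧ f.range ≤ fixS σ := by
  have ex {M : G2.M2} (h : M ∈ gW) : ∃ m : S.N, m.1 ∈ fixS σ ∧ corM (S.π m).1 = M := by
    obtain ⟨w, hw⟩ := exists_gW h
    obtain ⟨y, y1, y2⟩ := T.exists_N (by rw [Matrix.det_smul, Matrix.det_one, mul_one]; exact pow_ne_zero _ hb0) (v := w) (by rw [mul_smul_comm, smul_mul_assoc, mul_one, one_mul])
    exact ⟨y, y1, y2 ▸ hw⟩
  have cj (m : S.N) (c) := conj_torS A.hm (Weyl.aut _) (acts_π m) c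
  have hH (m : S.N) (h : corM (S.π m).1 = 1) : ∃ c, torS A.hm c = m.1 :=
    (torS_range A.hm).ge (π_eq_one_iff.1 (corM_inj (h.trans corM_one.symm)))
  obtain ⟨y, y1, y2⟩ := ex neg_mem'
  obtain ⟨x, x1, x2⟩ := ex (M := m2 (-1) 0 1 1) (by decide +kernel)
  have cy (c) : y.1 * torS A.hm c * y.1⁻¹ = torS A.hm c⁻¹ := by rw [cj, y2, ← neg_one_smul ℤ, mact_smul, mact_one, zpow_neg_one]
  have com (r : S.N) : ∃ c, torS A.hm c = r.1 * y.1 * r.1⁻¹ * y.1⁻¹ := (torS_range A.hm).ge (π_eq_one_iff.1 (by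
    rw [map_mul, map_mul, map_mul, map_inv, map_inv, mul_inv_eq_one, mul_inv_eq_iff_eq_mul]
    exact corM_inj (by rw [corM_mul', corM_mul', y2, neg_one_mul, mul_neg_one]) : S.π (r * y * r⁻¹ * y⁻¹) = 1))
  have yy : y.1 * y.1 = 1 := by
    obtain ⟨d, hd⟩ := hH (y * y) (by rw [map_mul, corM_mul', y2, neg_mul_neg, mul_one])
    have h {M : G2.M2} (hM : M ∈ gW) : mact M d = d := by
      obtain ⟨r, -, hr⟩ := ex hM
      obtain ⟨c, hc⟩ := com r
      refine T.inj ?_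
      rw [← hr, ← cj, hd, show r.1 * (y * y).1 * r.1⁻¹ = (r.1 * y.1 * r.1⁻¹ * y.1⁻¹) * (y.1 * (r.1 * y.1 * r.1⁻¹ * y.1⁻¹) * y.1⁻¹) * (y.1 * y.1) by
        rw [Subgroup.coe_mul]; group, ← hc, cy, ← map_mul, mul_inv_cancel, map_one, one_mul, Subgroup.coe_mul]
    have a0 := congrFun (h (M := m2 (-1) 0 0 (-1)) (by decide +kernel)) (nd _ 0)
    have a1 := congrFun (h (M := m2 (-1) 0 1 1) (by decide +kernel)) (nd _ 0)
    have a2 := congrFun (h (M := m2 1 3 0 (-1)) (by decide +kernel)) (nd _ 1)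
    simp only [mact_mk, nd, m2_00, m2_01, m2_10, m2_11, zpow_neg_one, zpow_zero, zpow_one, mul_one] at a0 a1 a2
    rw [a0, mul_eq_left] at a1
    rw [a1, inv_one, mul_one, show (3 : ℤ) = 1 + 1 + 1 from rfl, zpow_add_one, zpow_add_one, zpow_one, inv_eq_iff_mul_eq_one.1 a0, one_mul] at a2
    rw [← Subgroup.coe_mul, ← hd, show d = 1 from funext (forall_nd.2 ⟨a2, a1⟩), map_one]
  let τ := (torS A.hm).comp (cc Ωˣ)
  have hτ (p) : τ p ∈ fixS σ ↔ p ^ b = p := by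
    rw [show τ p = torS A.hm (cc Ωˣ p) from rfl, T.mem_fix, mact_smul, mact_one, ← map_zpow, (cc_inj _).eq_iff]
  have rg {g : G} (h : ∃ c, torS A.hm c = g) : g ∈ τ.range := by
    obtain ⟨c, rfl⟩ := h
    obtain ⟨p, rfl⟩ := cc_surj _ c
    exact ⟨p, rfl⟩
  have hi : Function.Injective τ := T.inj.comp (cc_inj _)
  obtain ⟨u, hu, s, hs, cu, cs, uu, ss, su⟩ := split τ hi (K := fixS σ)
    (fun a c h => (hτ (a, 1)).2 (Prod.ext (congrArg Prod.fst ((hτ (a, c)).1 h) :) (one_zpow _))) x1 y1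
    (fun p => (cy (cc Ωˣ p)).trans (by rw [← map_inv]; rfl)) (fun p => (cj x (cc Ωˣ p)).trans (by rw [x2, cc_swap]; rfl)) yy
    (rg (hH (x * x) (by rw [map_mul, corM_mul', x2]; decide +kernel))) (rg (com x))
  have : NeZero ((2 ^ (n + 2) : ℕ) : Ω) := ⟨by push_cast; exact pow_ne_zero _ h2⟩
  obtain ⟨ζ₀, hζ₀⟩ := HasEnoughRootsOfUnity.exists_primitiveRoot Ω (2 ^ (n + 2))
  obtain ⟨ζ, rfl⟩ := hζ₀.isUnit (by positivity)
  have hζ : IsPrimitiveRoot ζ (2 ^ (n + 2)) := IsPrimitiveRoot.coe_units_iff.1 hζ₀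
  let χ := AddChar.zmodChar (2 ^ (n + 2)) hζ.pow_eq_one
  have hχ (i) : χ i ^ b = χ i := by
    rw [← mul_inv_eq_one, ← zpow_sub_one, AddChar.zmodChar_apply, ← zpow_natCast, ← zpow_mul, hζ.zpow_eq_one_iff_dvd]
    exact (Int.natCast_dvd.2 hb).mul_left _
  have h0 (i) (h : χ i = 1) : i = 0 := by
    rw [AddChar.zmodChar_apply, hζ.pow_eq_one_iff_dvd] at h
    exact (ZMod.val_eq_zero _).1 (Nat.eq_zero_of_dvd_of_lt h (ZMod.val_lt _))
  refine ⟨lift (fun i j => τ (χ i, χ j)) u s (fun i j k l => by rw [← map_mul, AddChar.map_add_eq_mul, AddChar.map_add_eq_mul]; rfl)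
    (fun i j => by rw [cu, AddChar.map_neg_eq_inv, AddChar.map_neg_eq_inv]; rfl) (fun i j => cs _) uu ss su,
    inj_of (ar_zmod n) _ fun i j h => ?_, ?_⟩
  · rw [lift_apply] at h
    have := hi ((mul_one _).symm.trans (((congrArg _ (mul_one 1)).symm.trans h).trans (map_one τ).symm))
    exact ⟨h0 _ (congrArg Prod.fst this), h0 _ (congrArg Prod.snd this)⟩
  · rintro _ ⟨w, rfl⟩
    rw [lift_apply]
    refine mul_mem ((hτ _).2 (Prod.ext (hχ _) (hχ _))) (mul_mem ?_ ?_)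
    · cases w.e; exacts [one_mem _, hu]
    · cases w.d; exacts [one_mem _, hs]

theorem sylow {F : Type*} [Field F] [Fintype F] (hF : Odd (Fintype.card F)) (P : Sylow 2 ↥(chevG2.group F)) :
    ∃ n, Nonempty (W (ZMod (2 ^ (n + 2))) ≃* (P : Subgroup ↥(chevG2.group F))) := by
  obtain ⟨p, _⟩ := CharP.exists F
  have h2 : (2 : F) ≠ 0 := Ring.two_ne_zero fun e => by
    have := FiniteField.even_card_iff_char_two.1 e; have := Nat.odd_iff.1 hF; omega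
  obtain ⟨Ω, _, _, _, _, φ, τ, hτ, T, hr⟩ := exists_untw (D := chevG2) F p fun _ _ _ => torS_G2 _
  obtain ⟨ε, w, h1, h3, h4⟩ : ∃ (ε : ℤ) (w : Weyl chevG2), corM w.1 = ε • 1 ∧ 4 ∣ Fintype.card F * ε - 1 ∧ ε ^ 2 = 1 := by
    obtain ⟨w, hw⟩ := exists_gW neg_mem'
    obtain h | h := Nat.odd_mod_four_iff.1 (Nat.odd_iff.1 hF)
    exacts [⟨1, 1, by rw [one_smul]; exact corM_one, by omega, rfl⟩, ⟨-1, w, by simp [hw], by omega, rfl⟩]
  obtain ⟨σ, z, T', h5⟩ := T.exists_emb hr w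
  rw [h1, smul_mul_smul_comm, one_mul] at T'
  have hj := (MulAut.conj z).injective.comp (fieldHom_injective (D := chevG2) φ)
  let j := (MulAut.conj z).toMonoidHom.comp (fieldHom chevG2 φ)
  have h0 := Fintype.one_lt_card (α := F)
  have hc := Cfsg.Agent.S1059.result (F := F) rfl
  have hne : (Fintype.card F * ε - 1 : ℤ) ≠ 0 := fun e => by
    have : (Fintype.card F : ℤ) ^ 2 = 1 := by linear_combination (Fintype.card F * ε + 1) * e - Fintype.card F ^ 2 * h4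
    have : (1 : ℤ) < Fintype.card F := by exact_mod_cast h0
    nlinarith
  obtain ⟨k, o, ho, e⟩ := Nat.exists_eq_two_pow_mul_odd (Int.natAbs_ne_zero.2 hne)
  obtain ⟨n, rfl⟩ : ∃ n, k = n + 2 := by
    have h6 : 2 ^ 2 ∣ 2 ^ k * o := e ▸ Int.natCast_dvd.1 h3
    exact Nat.exists_eq_add_of_le' ((Nat.pow_dvd_pow_iff_le_right one_lt_two).1
      ((Nat.coprime_two_left.2 ho).pow_left 2 |>.dvd_of_dvd_mul_right h6))
  obtain ⟨f, hf, hf'⟩ := key T' (n := n) ⟨o, e⟩ (by omega) (by rw [← map_ofNat φ]; exact (map_ne_zero φ).2 h2)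
  let g := (MonoidHom.ofInjective (f := j) hj).symm.toMonoidHom.comp (f.codRestrict j.range fun x => h5.ge (hf' ⟨x, rfl⟩))
  have hg : Function.Injective g := (MonoidHom.ofInjective (f := j) hj).symm.injective.comp fun x y e => hf (congrArg Subtype.val e)
  have h7 : Nat.card g.range = 2 ^ (2 * (n + 2) + 2) := by
    rw [← Nat.card_congr (MonoidHom.ofInjective hg).toEquiv, card_W, Nat.card_zmod]; ring
  generalize Fintype.card F = q at *
  obtain ⟨a, ha⟩ := h3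
  have h10 : q ^ 6 * (q ^ 2 - 1) * (q ^ 6 - 1) = 2 ^ (2 * (n + 2) + 2) * (o ^ 2 * (q ^ 6 * (q ^ 4 + q ^ 2 + 1) * (2 * a + 1).natAbs ^ 2)) := by
    have e' : ((q : ℤ) * ε - 1) ^ 2 = (2 ^ (n + 2) * o) ^ 2 := by rw [← sq_abs, ← Int.natCast_natAbs, e]; push_cast; rfl
    zify [Nat.one_le_pow _ _ h0.le]
    rw [sq_abs, show (q : ℤ) ^ 6 - 1 = (q ^ 2 - 1) * (q ^ 4 + q ^ 2 + 1) by ring,
      show (q : ℤ) ^ 2 - 1 = (q * ε - 1) * (2 * (2 * a + 1)) by linear_combination (1 - q * ε) * -ha - q ^ 2 * h4]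
    linear_combination (q ^ 6 * (q ^ 4 + q ^ 2 + 1) * 4 * (2 * a + 1) ^ 2) * e'
  have h11 : Odd (o ^ 2 * (q ^ 6 * (q ^ 4 + q ^ 2 + 1) * (2 * a + 1).natAbs ^ 2)) :=
    ho.pow.mul ((hF.pow.mul ((hF.pow.add_odd hF.pow).add_one)).mul (Int.natAbs_odd.2 (odd_two_mul_add_one a)).pow)
  have h12 := g.range.card_mul_index
  rw [hc, h10, h7] at h12
  have : Finite ↥(chevG2.group F) := Nat.finite_of_card_ne_zero (by rw [hc, h10]; exact mul_ne_zero (by positivity) h11.pos.ne')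
  have h13 : ¬ 2 ∣ g.range.index := by rw [mul_left_cancel₀ (by positivity) h12]; exact h11.not_two_dvd_nat
  exact ⟨n, ⟨(MonoidHom.ofInjective hg).trans (Sylow.equiv ((IsPGroup.of_card h7).toSylow h13) P)⟩⟩

end H25.GT
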