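import Cfsg.Agent.S1553
import Cfsg.Agent.S1554
import Cfsg.Agent.S0381
import Cfsg.Agent.S0363
import Cfsg.Agent.S0369
import Cfsg.Agent.H14.P24

/-!
The hexad subgroup of `M₂₂`: concrete half of part H of S5566.
-/

set_option autoImplicit false

namespace H25.JC
open _root_.Cfsg Finset Equiv
open scoped Pointwise

theorem un {A B : Finset GolayPt} (a : A ∈ octads) (b : B ∈ octads) (c : 5 ≤ (A ∩ B).card) : A = B := by
  obtain ⟨s, hs, cs⟩ := exists_subset_card_eq c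
  exact (Cfsg.Agent.S0363.result.2 s cs).unique ⟨a, hs.trans inter_subset_left⟩ ⟨b, hs.trans inter_subset_right⟩

theorem c5 {a b c d e : GolayPt} (h1 : a ≠ b) (h2 : a ≠ c) (h3 : a ≠ d) (h4 : a ≠ e) (h5 : b ≠ c) (h6 : b ≠ d) (h7 : b ≠ e) (h8 : c ≠ d)
    (h9 : c ≠ e) (h10 : d ≠ e) : ({a, b, c, d, e} : Finset GolayPt).card = 5 := by
  rw [card_insert_of_notMem (by simp [*]), card_insert_of_notMem (by simp [*]), card_insert_of_notMem (by simp [*]), card_pair h10]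

theorem fixall {g : Perm GolayPt} (hg : g ∈ M24) {O : Finset GolayPt} (hO : O ∈ octads) {n : GolayPt} (nO : n ∈ O) (gn : g n = n)
    (h : ∀ x, x ∉ O → g x = x) {a : GolayPt} (aO : a ∈ O) : g a = a := by
  by_contra ne
  have c8 := Cfsg.Agent.S0363.result.1
  have cc : Oᶜ.card = 16 := by rw [card_compl, c8 O hO]; rfl
  have an : a ≠ n := fun e => ne (by rw [e, gn])
  have bn : g a ≠ n := fun e => an (g.injective (e.trans gn.symm))
  have bO : g a ∈ O := by_contra fun e => ne (g.injective (h _ e))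
  have d : ∀ {x y}, x ∈ O → y ∈ Oᶜ → x ≠ y := fun a b e => mem_compl.1 b (e ▸ a)
  obtain ⟨p, hp, q, hq, pq⟩ := one_lt_card.1 (show 1 < Oᶜ.card by omega)
  have s5 := c5 (Ne.symm ne) an (d aO hp) (d aO hq) bn (d bO hp) (d bO hq) (d nO hp) (d nO hq) pq
  obtain ⟨A, ⟨hA, sA⟩, uA⟩ := Cfsg.Agent.S0363.result.2 _ s5
  obtain ⟨r, hr, rA⟩ := exists_mem_notMem_of_card_lt_card (show A.card < Oᶜ.card by rw [c8 A hA]; omega)
  obtain ⟨B, ⟨hB, sB⟩, -⟩ := Cfsg.Agent.S0363.result.2 _ (c5 an (d aO hp) (d aO hq) (d aO hr) (d nO hp) (d nO hq) (d nO hr) pq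
    (fun e => rA (sA (by simp [← e]))) fun e => rA (sA (by simp [← e])))
  have i4 : ¬ 5 ≤ (B ∩ O).card := fun e => mem_compl.1 hp (un hB hO e ▸ sB (by simp))
  have gB : g • B ∈ octads := by
    rw [Cfsg.Agent.S0369.result] at hg
    exact MulAction.mem_stabilizer_iff.1 hg ▸ Set.smul_mem_smul_set hB
  have e : g • B = B := un gB hB (le_trans (by
    have := card_sdiff_add_card_inter B O
    rw [card_insert_of_notMem (by simp [nO])]
    have := c8 B hB
    omega) (card_le_card (show insert n (B \ O) ⊆ g • B ∩ B from fun x hx => by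
      have : x ∈ B ∧ g x = x := by
        rcases mem_insert.1 hx with rfl | hx
        exacts [⟨sB (by simp), gn⟩, ⟨(mem_sdiff.1 hx).1, h x (mem_sdiff.1 hx).2⟩]
      exact mem_inter.2 ⟨this.2 ▸ smul_mem_smul_finset this.1, this.1⟩)))
  have bB : g a ∈ B := e ▸ smul_mem_smul_finset (sB (by simp))
  refine rA (uA B ⟨hB, fun x hx => ?_⟩ ▸ sB (by simp))
  simp only [mem_insert, mem_singleton] at hx
  rcases hx with rfl | rfl | rfl | rfl | rfl
  exacts [sB (by simp), bB, sB (by simp), sB (by simp), sB (by simp)]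

theorem con : ∃ (K Y : Subgroup Spor.M22) (α : Type) (_ : Fintype α) (_ : DecidableEq α) (φ : K →* alternatingGroup α),
    Fintype.card α = 6 ∧ Function.Surjective φ ∧ (∀ k : K, φ k = 1 ↔ (k : Spor.M22) ∈ Y) ∧ Y ≤ K ∧ Nat.card Y = 16 ∧
    (∀ y ∈ Y, y * y = 1) ∧ (∀ k ∈ K, (∀ y ∈ Y, k * y = y * k) → k ∈ Y) ∧ K.index = 77 := by
  obtain ⟨O, ⟨hO, sO⟩, -⟩ := Cfsg.Agent.S0363.result.2 {none, some 0, some 1, some 2, some 3} (by decide)
  have n0 : none ∈ O := sO (by simp)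
  have n1 : some 0 ∈ O := sO (by simp)
  have c8 := Cfsg.Agent.S0363.result.1 O hO
  let Y0 := M24 ⊓ fixingSubgroup (Perm GolayPt) (O : Set GolayPt)
  have mY : ∀ g, g ∈ Y0 ↔ g ∈ M24 ∧ ∀ x ∈ O, g x = x := fun g => and_congr_right fun _ => mem_fixingSubgroup_iff _
  have yl : Y0 ≤ Spor.M22 := fun g hg => ⟨⟨hg.1, ((mY g).1 hg).2 _ n0⟩, ((mY g).1 hg).2 _ n1⟩
  let K : Subgroup Spor.M22 := ⟨⟨⟨{g | ∀ x, g.1 x ∈ O ↔ x ∈ O}, fun a b x => (a _).trans (b x)⟩, fun _ => Iff.rfl⟩,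
    fun {g} a x => by rw [← a]; simp⟩
  have YK : Y0.subgroupOf Spor.M22 ≤ K := fun g hg x => ⟨fun e => g.1.injective (((mY _).1 hg).2 _ e) ▸ e, fun e => (((mY _).1 hg).2 _ e).symm ▸ e⟩
  have pk : ∀ (k : K) (x : O), ((k.1.1.subtypePerm k.2 x).1 ≠ none ∧ (k.1.1.subtypePerm k.2 x).1 ≠ some 0) ↔ (x.1 ≠ none ∧ x.1 ≠ some 0) :=
    fun k x => and_congr (not_congr ⟨fun e => k.1.1.injective (e.trans k.1.2.1.2.symm), fun e => (congrArg k.1.1 e).trans k.1.2.1.2⟩)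
      (not_congr ⟨fun e => k.1.1.injective (e.trans k.1.2.2.symm), fun e => (congrArg k.1.1 e).trans k.1.2.2⟩)
  have fk : ∀ (k : K) (x : O), k.1.1.subtypePerm k.2 x ≠ x → x.1 ≠ none ∧ x.1 ≠ some 0 := fun k x n =>
    ⟨fun e => n (Subtype.ext ((congrArg k.1.1 e).trans (k.1.2.1.2.trans e.symm))),
      fun e => n (Subtype.ext ((congrArg k.1.1 e).trans (k.1.2.2.trans e.symm)))⟩
  let φ0 : K →* Perm {x : O // x.1 ≠ none ∧ x.1 ≠ some 0} := MonoidHom.mk' (fun k => (k.1.1.subtypePerm k.2).subtypePerm (pk k))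
    fun _ _ => rfl
  have S := Set.ext_iff.1 (Cfsg.Agent.S1553.result O hO)
  let φ : K →* alternatingGroup {x : O // x.1 ≠ none ∧ x.1 ≠ some 0} := φ0.codRestrict _ fun k => Perm.mem_alternatingGroup.2
    ((Perm.sign_subtypePerm _ (pk k) (fk k)).trans (Perm.mem_alternatingGroup.1 ((S _).1 ⟨k.1.1, k.1.2.1.1, k.2, rfl⟩)))
  have ca : Fintype.card {x : O // x.1 ≠ none ∧ x.1 ≠ some 0} = 6 := by
    rw [Fintype.card_congr (Equiv.subtypeSubtypeEquivSubtypeInter (· ∈ O) fun x => x ≠ none ∧ x ≠ some 0),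
      Fintype.card_of_subtype ((O.erase none).erase (some 0)) fun x => by simp; tauto,
      card_erase_of_mem (by simp [n1]), card_erase_of_mem n0, c8]
  have su : Function.Surjective φ := fun e => by
    obtain ⟨g, hg, h, r⟩ := (S (Perm.ofSubtype e.1)).2 (Perm.mem_alternatingGroup.2 ((Perm.sign_ofSubtype _).trans e.2))
    have f : ∀ x : O, ¬ (x.1 ≠ none ∧ x.1 ≠ some 0) → g x = x := fun x n =>
      congrArg Subtype.val ((congrArg (· x) r).trans (Perm.ofSubtype_apply_of_not_mem e.1 n))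
    refine ⟨⟨⟨g, ⟨hg, f ⟨_, n0⟩ (by simp)⟩, f ⟨_, n1⟩ (by simp)⟩, h⟩, Subtype.ext (Equiv.ext fun x => Subtype.ext ?_)⟩
    exact (congrArg (· x.1) r).trans (Perm.ofSubtype_apply_coe e.1 x)
  have ke : ∀ k : K, φ k = 1 ↔ (k : Spor.M22) ∈ Y0.subgroupOf Spor.M22 := fun k => ⟨fun e => (mY _).2 ⟨k.1.2.1.1, fun x hx => by
    by_contra n
    exact n (congrArg (fun f : alternatingGroup _ => (f.1 ⟨⟨x, hx⟩, fk k ⟨x, hx⟩ fun e => n (congrArg Subtype.val e)⟩).1.1) e)⟩,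
    fun e => Subtype.ext (Equiv.ext fun x => Subtype.ext (Subtype.ext (((mY _).1 e).2 _ x.1.2)))⟩
  have c0 := Cfsg.Agent.S0381.result O hO
  have cY : Nat.card (Y0.subgroupOf Spor.M22) = 16 := (Nat.card_congr (Subgroup.subgroupOfEquivOfLe yl).toEquiv).trans c0.1
  refine ⟨K, Y0.subgroupOf Spor.M22, _, inferInstance, inferInstance, φ, ca, su, ke, YK, cY, fun y hy => Subtype.ext (c0.2 _ hy),
    fun k hk c => ?_, ?_⟩
  · have cc : Oᶜ.card = 16 := by rw [card_compl, c8]; rfl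
    obtain ⟨p, hp⟩ := card_pos.1 (show 0 < Oᶜ.card by omega)
    let f : Y0 → (Oᶜ : Finset GolayPt) := fun y => ⟨y.1 p, mem_compl.2 fun e => mem_compl.1 hp ((YK (x := ⟨y.1, yl y.2⟩) y.2 p).1 e)⟩
    have fi : Function.Injective f := fun a b e => by
      have m := mul_mem (inv_mem a.2) b.2
      have : a.1⁻¹ * b.1 ∈ (⊥ : Subgroup (Perm GolayPt)) := (Cfsg.Agent.S1554.result O hO p (mem_compl.1 hp)).1 ▸ ⟨m, ⟨m.1, MulAction.mem_stabilizer_iff.2 (by
        exact (image_congr (g := id) fun x hx => ((mY _).1 m).2 x hx).trans image_id)⟩,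
        show a.1⁻¹ (b.1 p) = p from Perm.inv_eq_iff_eq.2 (congrArg Subtype.val e).symm⟩
      exact Subtype.ext (inv_mul_eq_one.1 this)
    have fs := ((Nat.bijective_iff_injective_and_card f).2 ⟨fi, by rw [c0.1, Nat.card_eq_finsetCard, cc]⟩).2
    obtain ⟨y, hy⟩ := fs ⟨k.1 p, mem_compl.2 fun e => mem_compl.1 hp ((hk p).1 e)⟩
    have hy : y.1 p = k.1 p := congrArg Subtype.val hy
    have cm : ∀ a b : Y0, a.1 * b.1 = b.1 * a.1 := fun a b => by
      rw [← inv_eq_of_mul_eq_one_right (c0.2 _ (mul_mem a.2 b.2)), mul_inv_rev, inv_eq_of_mul_eq_one_right (c0.2 _ a.2),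
        inv_eq_of_mul_eq_one_right (c0.2 _ b.2)]
    have m : y.1⁻¹ * k.1 ∈ Y0 := (mY _).2 ⟨mul_mem (inv_mem y.2.1) k.2.1.1, fun a ha => fixall (mul_mem (inv_mem y.2.1) k.2.1.1) hO n0
      (Perm.inv_eq_iff_eq.2 (k.2.1.2.trans (((mY _).1 y.2).2 _ n0).symm)) (fun x hx => by
        obtain ⟨w, hw⟩ := fs ⟨x, mem_compl.2 hx⟩
        have hw : w.1 p = x := congrArg Subtype.val hw
        have e : k.1 * w.1 = w.1 * k.1 := congrArg Subtype.val (c ⟨w.1, yl w.2⟩ w.2)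
        refine Perm.inv_eq_iff_eq.2 ?_
        rw [← hw, ← Perm.mul_apply, e, Perm.mul_apply, ← hy, ← Perm.mul_apply, cm, Perm.mul_apply]) ha⟩
    exact (show k.1 ∈ Y0 by simpa using mul_mem y.2 m)
  · have a := K.index_mul_card
    have b := φ.ker.index_mul_card
    have : Nontrivial {x : O // x.1 ≠ none ∧ x.1 ≠ some 0} := Fintype.one_lt_card_iff_nontrivial.1 (by omega)
    have c := two_mul_nat_card_alternatingGroup (α := {x : O // x.1 ≠ none ∧ x.1 ≠ some 0})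
    rw [Subgroup.index_ker, MonoidHom.range_eq_top.2 su, Subgroup.card_top, show φ.ker = (Y0.subgroupOf Spor.M22).subgroupOf K from
      Subgroup.ext ke, Nat.card_congr (Subgroup.subgroupOfEquivOfLe YK).toEquiv, cY] at b
    rw [Nat.card_perm, Nat.card_eq_fintype_card (α := {x : O // _}), ca] at c
    rw [H14.card_M22, ← b, show Nat.card (alternatingGroup {x : O // x.1 ≠ none ∧ x.1 ≠ some 0}) = 360 by
      simp only [Nat.factorial] at c; omega] at a
    omega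

end H25.JC
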