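import Cfsg.Agent.H25.JC
import Cfsg.Agent.H07.JH

/-!
Part H of S5566: the hexad subgroup of `M₂₂`.
-/

set_option autoImplicit false

namespace H25.JC

theorem h : Cfsg.Agent.H06.J.HStmt := by
  obtain ⟨K, Y, α, _, _, φ, a, b, c, d, e, f, g, i⟩ := con
  exact ⟨K, Y, _root_.H07.JH.hx a φ b c d e f g, i⟩

end H25.JC
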