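import Cfsg.Agent.H25.JH
import Cfsg.Agent.H23.K0
import Cfsg.Agent.S1604
import Cfsg.Agent.S5394
import Cfsg.Agent.H14.MSimple

/-!
Part H2 of S5567: further facts on the hexad subgroup of `M₂₂`.
-/

set_option autoImplicit false

namespace H25.KH
open _root_.Cfsg Finset Equiv H25.JC BG
open scoped Pointwise

theorem con : ∃ (O : Finset GolayPt) (K Y : Subgroup Spor.M22) (α : Type) (_ : Fintype α) (_ : DecidableEq α) (φ : K →* alternatingGroup α),
    O ∈ octads ∧ none ∈ O ∧ some 0 ∈ O ∧ K = MulAction.stabilizer Spor.M22 O ∧ (∀ g, g ∈ Y ↔ ∀ x ∈ O, g.1 x = x) ∧ Fintype.card α = 6 ∧ Function.Surjective φ ∧ (∀ k : K, φ k = 1 ↔ (k : Spor.M22) ∈ Y) ∧ Y ≤ K ∧ Nat.card Y = 16 ∧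
    (∀ y ∈ Y, y * y = 1) ∧ (∀ k ∈ K, (∀ y ∈ Y, k * y = y * k) → k ∈ Y) ∧ K.index = 77 := by
  obtain ⟨O, ⟨hO, sO⟩, -⟩ := Cfsg.Agent.S0363.result.2 {none, some 0, some 1, some 2, some 3} (by decide)
  have n0 : none ∈ O := sO (by simp)
  have n1 : some 0 ∈ O := sO (by simp)
  have c8 := Cfsg.Agent.S0363.result.1 O hO
  let Y0 := M24 ⊓ fixingSubgroup (Perm GolayPt) (O : Set GolayPt)
  have mY : ∀ g, g ∈ Y0 ↔ g ∈ M24 ∧ ∀ x ∈ O, g x = x := fun g => and_congr_right fun _ => mem_fixingSubgroup_iff _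
  have yl : Y0 ≤ Spor.M22 := fun g hg => ⟨⟨hg.1, ((mY g).1 hg).2 _ n0⟩, ((mY g).1 hg).2 _ n1⟩
  let K : Subgroup Spor.M22 := ⟨⟨⟨{g | ∀ x, g.1 x ∈ O ↔ x ∈ O}, fun a b x => (a _).trans (b x)⟩, fun _ => Iff.rfl⟩,
    fun {g} a x => by rw [← a]; simp⟩
  have YK : Y0.subgroupOf Spor.M22 ≤ K := fun g hg x => ⟨fun e => g.1.injective (((mY _).1 hg).2 _ e) ▸ e, fun e => (((mY _).1 hg).2 _ e).symm ▸ e⟩
  have pk : ∀ (k : K) (x : O), ((k.1.1.subtypePerm k.2 x).1 ≠ none ∧ (k.1.1.subtypePerm k.2 x).1 ≠ some 0) ↔ (x.1 ≠ none ∧ x.1 ≠ some 0) :=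
    fun k x => and_congr (not_congr ⟨fun e => k.1.1.injective (e.trans k.1.2.1.2.symm), fun e => (congrArg k.1.1 e).trans k.1.2.1.2⟩)
      (not_congr ⟨fun e => k.1.1.injective (e.trans k.1.2.2.symm), fun e => (congrArg k.1.1 e).trans k.1.2.2⟩)
  have fk : ∀ (k : K) (x : O), k.1.1.subtypePerm k.2 x ≠ x → x.1 ≠ none ∧ x.1 ≠ some 0 := fun k x n =>
    ⟨fun e => n (Subtype.ext ((congrArg k.1.1 e).trans (k.1.2.1.2.trans e.symm))),
      fun e => n (Subtype.ext ((congrArg k.1.1 e).trans (k.1.2.2.trans e.symm)))⟩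
  let φ0 : K →* Perm {x : O // x.1 ≠ none ∧ x.1 ≠ some 0} := MonoidHom.mk' (fun k => (k.1.1.subtypePerm k.2).subtypePerm (pk k))
    fun _ _ => rfl
  have S := Set.ext_iff.1 (Cfsg.Agent.S1553.result O hO)
  let φ : K →* alternatingGroup {x : O // x.1 ≠ none ∧ x.1 ≠ some 0} := φ0.codRestrict _ fun k => Perm.mem_alternatingGroup.2
    ((Perm.sign_subtypePerm _ (pk k) (fk k)).trans (Perm.mem_alternatingGroup.1 ((S _).1 ⟨k.1.1, k.1.2.1.1, k.2, rfl⟩)))
  have ca : Fintype.card {x : O // x.1 ≠ none ∧ x.1 ≠ some 0} = 6 := by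
    rw [Fintype.card_congr (Equiv.subtypeSubtypeEquivSubtypeInter (· ∈ O) fun x => x ≠ none ∧ x ≠ some 0),
      Fintype.card_of_subtype ((O.erase none).erase (some 0)) fun x => by simp; tauto,
      card_erase_of_mem (by simp [n1]), card_erase_of_mem n0, c8]
  have su : Function.Surjective φ := fun e => by
    obtain ⟨g, hg, h, r⟩ := (S (Perm.ofSubtype e.1)).2 (Perm.mem_alternatingGroup.2 ((Perm.sign_ofSubtype _).trans e.2))
    have f : ∀ x : O, ¬ (x.1 ≠ none ∧ x.1 ≠ some 0) → g x = x := fun x n =>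
      congrArg Subtype.val ((congrArg (· x) r).trans (Perm.ofSubtype_apply_of_not_mem e.1 n))
    refine ⟨⟨⟨g, ⟨hg, f ⟨_, n0⟩ (by simp)⟩, f ⟨_, n1⟩ (by simp)⟩, h⟩, Subtype.ext (Equiv.ext fun x => Subtype.ext ?_)⟩
    exact (congrArg (· x.1) r).trans (Perm.ofSubtype_apply_coe e.1 x)
  have ke : ∀ k : K, φ k = 1 ↔ (k : Spor.M22) ∈ Y0.subgroupOf Spor.M22 := fun k => ⟨fun e => (mY _).2 ⟨k.1.2.1.1, fun x hx => by
    by_contra n
    exact n (congrArg (fun f : alternatingGroup _ => (f.1 ⟨⟨x, hx⟩, fk k ⟨x, hx⟩ fun e => n (congrArg Subtype.val e)⟩).1.1) e)⟩,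
    fun e => Subtype.ext (Equiv.ext fun x => Subtype.ext (Subtype.ext (((mY _).1 e).2 _ x.1.2)))⟩
  have c0 := Cfsg.Agent.S0381.result O hO
  have cY : Nat.card (Y0.subgroupOf Spor.M22) = 16 := (Nat.card_congr (Subgroup.subgroupOfEquivOfLe yl).toEquiv).trans c0.1
  refine ⟨O, K, Y0.subgroupOf Spor.M22, _, inferInstance, inferInstance, φ, hO, n0, n1, Subgroup.ext fun g => ⟨fun h =>
    eq_of_subset_of_card_le (fun x hx => by obtain ⟨y, hy, rfl⟩ := mem_smul_finset.1 hx; exact (h y).2 hy) (card_smul_finset _ _).ge,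
    fun h x => by
      have h : g.1 • O = O := h
      nth_rw 1 [← h]
      exact smul_mem_smul_finset_iff g.1⟩, fun g => (mY _).trans (and_iff_right g.2.1.1), ca, su, ke, YK, cY, fun y hy => Subtype.ext (c0.2 _ hy),
    fun k hk c => ?_, ?_⟩
  · have cc : Oᶜ.card = 16 := by rw [card_compl, c8]; rfl
    obtain ⟨p, hp⟩ := card_pos.1 (show 0 < Oᶜ.card by omega)
    let f : Y0 → (Oᶜ : Finset GolayPt) := fun y => ⟨y.1 p, mem_compl.2 fun e => mem_compl.1 hp ((YK (x := ⟨y.1, yl y.2⟩) y.2 p).1 e)⟩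
    have fi : Function.Injective f := fun a b e => by
      have m := mul_mem (inv_mem a.2) b.2
      have : a.1⁻¹ * b.1 ∈ (⊥ : Subgroup (Perm GolayPt)) := (Cfsg.Agent.S1554.result O hO p (mem_compl.1 hp)).1 ▸ ⟨m, ⟨m.1, MulAction.mem_stabilizer_iff.2 (by
        exact (image_congr (g := id) fun x hx => ((mY _).1 m).2 x hx).trans image_id)⟩,
        show a.1⁻¹ (b.1 p) = p from Perm.inv_eq_iff_eq.2 (congrArg Subtype.val e).symm⟩
      exact Subtype.ext (inv_mul_eq_one.1 this)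
    have fs := ((Nat.bijective_iff_injective_and_card f).2 ⟨fi, by rw [c0.1, Nat.card_eq_finsetCard, cc]⟩).2
    obtain ⟨y, hy⟩ := fs ⟨k.1 p, mem_compl.2 fun e => mem_compl.1 hp ((hk p).1 e)⟩
    have hy : y.1 p = k.1 p := congrArg Subtype.val hy
    have cm : ∀ a b : Y0, a.1 * b.1 = b.1 * a.1 := fun a b => by
      rw [← inv_eq_of_mul_eq_one_right (c0.2 _ (mul_mem a.2 b.2)), mul_inv_rev, inv_eq_of_mul_eq_one_right (c0.2 _ a.2),
        inv_eq_of_mul_eq_one_right (c0.2 _ b.2)]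
    have m : y.1⁻¹ * k.1 ∈ Y0 := (mY _).2 ⟨mul_mem (inv_mem y.2.1) k.2.1.1, fun a ha => fixall (mul_mem (inv_mem y.2.1) k.2.1.1) hO n0
      (Perm.inv_eq_iff_eq.2 (k.2.1.2.trans (((mY _).1 y.2).2 _ n0).symm)) (fun x hx => by
        obtain ⟨w, hw⟩ := fs ⟨x, mem_compl.2 hx⟩
        have hw : w.1 p = x := congrArg Subtype.val hw
        have e : k.1 * w.1 = w.1 * k.1 := congrArg Subtype.val (c ⟨w.1, yl w.2⟩ w.2)
        refine Perm.inv_eq_iff_eq.2 ?_
        rw [← hw, ← Perm.mul_apply, e, Perm.mul_apply, ← hy, ← Perm.mul_apply, cm, Perm.mul_apply]) ha⟩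
    exact (show k.1 ∈ Y0 by simpa using mul_mem y.2 m)
  · have a := K.index_mul_card
    have b := φ.ker.index_mul_card
    have : Nontrivial {x : O // x.1 ≠ none ∧ x.1 ≠ some 0} := Fintype.one_lt_card_iff_nontrivial.1 (by omega)
    have c := two_mul_nat_card_alternatingGroup (α := {x : O // x.1 ≠ none ∧ x.1 ≠ some 0})
    rw [Subgroup.index_ker, MonoidHom.range_eq_top.2 su, Subgroup.card_top, show φ.ker = (Y0.subgroupOf Spor.M22).subgroupOf K from
      Subgroup.ext ke, Nat.card_congr (Subgroup.subgroupOfEquivOfLe YK).toEquiv, cY] at b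
    rw [Nat.card_perm, Nat.card_eq_fintype_card (α := {x : O // _}), ca] at c
    rw [H14.card_M22, ← b, show Nat.card (alternatingGroup {x : O // x.1 ≠ none ∧ x.1 ≠ some 0}) = 360 by
      simp only [Nat.factorial] at c; omega] at a
    omega

theorem h2 : Cfsg.Agent.H23.K.H2Stmt := by
  obtain ⟨O, K, Y, α, _, _, φ, hO, n0, n1, rfl, mY, ca, su, ke, YK, cY, Y2, cen, iK⟩ := con
  have hx := _root_.H07.JH.hx ca φ su ke YK cY Y2 cen
  let S : ℕ → Set (Finset GolayPt) := fun n => {x | x ∈ octads ∧ none ∈ x ∧ some 0 ∈ x ∧ (O ∩ x).card = n}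
  have R := fun o' o'' a b c d e => Cfsg.Agent.S1604.result none (some 0) (by simp) O o' o'' hO a b c d e
  have c2 : (S 2).ncard = 16 := (R O O hO hO ⟨n0, n0, n0⟩ ⟨n1, n1, n1⟩ rfl).1
  have c4 : (S 4).ncard = 60 := (R O O hO hO ⟨n0, n0, n0⟩ ⟨n1, n1, n1⟩ rfl).2.1
  have mv : ∀ (g : Spor.M22) x, x ∈ octads → none ∈ x → some 0 ∈ x → g • x ∈ octads ∧ none ∈ g • x ∧ some 0 ∈ g • x := fun g x a b c => by
    have hg : g.1 ∈ setSystemAut octads := Cfsg.Agent.S0369.result ▸ g.2.1.1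
    exact ⟨MulAction.mem_stabilizer_iff.1 hg ▸ Set.smul_mem_smul_set a, (show g.1 • none = none from g.2.1.2) ▸ smul_mem_smul_finset b,
      (show g.1 • (some 0 : GolayPt) = some 0 from g.2.2) ▸ smul_mem_smul_finset c⟩
  have tri : ∀ x, x ∈ octads → none ∈ x → some 0 ∈ x → x = O ∨ x ∈ S 2 ∨ x ∈ S 4 := fun x a b c => by
    by_cases e : O = x
    · exact Or.inl e.symm
    have : 1 < (O ∩ x).card := one_lt_card.2 ⟨_, mem_inter.2 ⟨n0, b⟩, _, mem_inter.2 ⟨n1, c⟩, by simp⟩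
    rcases H14.octad_inter hO a e with r | r | r
    exacts [by omega, Or.inr (Or.inl ⟨a, b, c, r⟩), Or.inr (Or.inr ⟨a, b, c, r⟩)]
  have tr : ∀ n, ∀ x ∈ S n, ∀ y ∈ S n, ∃ k ∈ MulAction.stabilizer Spor.M22 O, k • x = y := fun n x a y b => by
    obtain ⟨g, g1, g2, g3, g4, g5⟩ := (R x y a.1 b.1 ⟨n0, a.2.1, b.2.1⟩ ⟨n1, a.2.2.1, b.2.2.1⟩ (a.2.2.2.trans b.2.2.2.symm)).2.2
    exact ⟨⟨g, ⟨g1, g2⟩, g3⟩, g4, g5⟩
  have ri : ∀ n (g : Spor.M22), g • O ∈ S n → (MulAction.stabilizer Spor.M22 O ⊓ cj g (MulAction.stabilizer Spor.M22 O)).relIndex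
      (MulAction.stabilizer Spor.M22 O) = (S n).ncard := fun n g hg => by
    rw [Subgroup.inf_relIndex_left, cj, ← MulAction.stabilizer_smul_eq_stabilizer_map_conj, Subgroup.relIndex,
      show (MulAction.stabilizer Spor.M22 (g • O)).subgroupOf (MulAction.stabilizer Spor.M22 O) =
        MulAction.stabilizer (MulAction.stabilizer Spor.M22 O) (g • O) from rfl, MulAction.index_stabilizer]
    congr 1
    ext y
    refine ⟨?_, fun hy => ?_⟩
    · rintro ⟨k, rfl⟩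
      obtain ⟨a, b, c⟩ := mv k.1 _ hg.1 hg.2.1 hg.2.2.1
      refine ⟨a, b, c, ?_⟩
      rw [← hg.2.2.2, ← card_smul_finset k.1.1 (O ∩ g • O), smul_finset_inter, show k.1.1 • O = O from k.2]
      rfl
    · obtain ⟨k, a, b⟩ := tr n _ hg y hy
      exact ⟨⟨k, a⟩, b⟩
  have ob : MulAction.orbit Spor.M22 O = insert O (S 2 ∪ S 4) := Set.eq_of_subset_of_ncard_le (by
    rintro _ ⟨g, rfl⟩
    obtain ⟨a, b, c⟩ := mv g O hO n0 n1
    exact tri _ a b c) (by
    rw [← MulAction.index_stabilizer, iK]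
    have := Set.ncard_insert_le O (S 2 ∪ S 4)
    have := Set.ncard_union_le (S 2) (S 4)
    omega)
  obtain ⟨x0, h0⟩ := Set.nonempty_of_ncard_ne_zero (c2.trans_ne (by decide))
  obtain ⟨g0, rfl⟩ : x0 ∈ MulAction.orbit Spor.M22 O := ob ▸ Or.inr (Or.inl h0)
  have cs : ∀ g : Spor.M22, g • O = O ∨ g • O ∈ S 2 ∨ g • O ∈ S 4 := fun g => by
    obtain ⟨a, b, c⟩ := mv g O hO n0 n1
    exact tri _ a b c
  refine ⟨_, Y, hx, le_top, by rw [Subgroup.relIndex_top_right, iK], fun x _ x2 => ?_, ?_, ⟨g0, trivial, (ri 2 g0 h0).trans c2,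
    fun g _ => (cs g).imp id (Or.imp (fun r => ?_) fun r => (ri 4 g r).trans c4)⟩, fun J KJ _ => ?_,
    ((Fintype.equivFinOfCardEq ca).altCongrHom.toMonoidHom.comp φ), (Fintype.equivFinOfCardEq ca).altCongrHom.surjective.comp su, fun k => ?_⟩
  · by_cases x1 : x = 1
    · exact ⟨1, trivial, by simp [x1, one_mem]⟩
    have o2 : orderOf x.1 = 2 := orderOf_eq_prime (by rw [pow_two]; exact congrArg Subtype.val x2) fun e => x1 (Subtype.ext e)
    have hF := (Cfsg.Agent.S5394.result.1 x.1 x.2.1.1 o2).resolve_right fun e => e none x.2.1.2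
    obtain ⟨g, hg⟩ := (Set.ext_iff.1 ob _).2 <| tri _ hF (mem_filter.2 ⟨mem_univ _, x.2.1.2⟩) (mem_filter.2 ⟨mem_univ _, x.2.2⟩)
    refine ⟨g⁻¹, trivial, (mY _).2 fun p hp => ?_⟩
    have : g.1 p ∈ g • O := smul_mem_smul_finset hp
    rw [show g • O = _ from hg] at this
    exact Perm.inv_eq_iff_eq.2 (mem_filter.1 this).2
  · by_contra! n
    have := H14.simple_M22
    rcases (show Y.Normal from ⟨fun y hy g => n g trivial y hy⟩).eq_bot_or_eq_top with e | e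
    · rw [e, Subgroup.card_bot] at cY; omega
    · rw [e, Subgroup.card_top, H14.card_M22] at cY; omega
  · obtain ⟨k, a, b⟩ := tr 2 _ h0 _ r
    refine ⟨k, a, (k * g0)⁻¹ * g, ?_, by group⟩
    rw [MulAction.mem_stabilizer_iff, mul_smul, ← b, inv_smul_eq_iff, mul_smul]
  · by_cases e : J ≤ MulAction.stabilizer Spor.M22 O
    · exact Or.inl (le_antisymm e KJ)
    obtain ⟨g, gJ, gK⟩ := SetLike.not_le_iff_exists.1 e
    have m := Subgroup.relIndex_mul_index KJ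
    have l : (cj g (MulAction.stabilizer Spor.M22 O)).relIndex (MulAction.stabilizer Spor.M22 O) ≤
        (MulAction.stabilizer Spor.M22 O).relIndex J := by
      refine (Subgroup.relIndex_le_of_le_right KJ Subgroup.FiniteIndex.index_ne_zero).trans (le_of_eq ?_)
      have : cj g J = J := Subgroup.ext fun x => mem_cj.trans ⟨fun h => by simpa [mul_assoc] using mul_mem (mul_mem gJ h) (inv_mem gJ),
        fun h => mul_mem (mul_mem (inv_mem gJ) h) gJ⟩
      nth_rw 1 [← this]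
      exact Subgroup.relIndex_map_map_of_injective _ _ (MulAut.conj g).injective
    have l2 : 16 ≤ (MulAction.stabilizer Spor.M22 O).relIndex J := by
      rw [← Subgroup.inf_relIndex_left] at l
      rcases (cs g).resolve_left gK with r | r
      · rw [ri 2 g r] at l; omega
      · rw [ri 4 g r] at l; omega
    rw [iK] at m
    refine Or.inr (Subgroup.index_eq_one.1 ?_)
    generalize (MulAction.stabilizer Spor.M22 O).relIndex J = a at m l2
    generalize J.index = b at m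
    have : b ≤ 4 := by nlinarith
    interval_cases b <;> omega
  · refine ((Fintype.equivFinOfCardEq ca).altCongrHom.map_eq_one_iff.trans (ke k)).trans ⟨fun h => ⟨_, h, 0, by simp⟩, ?_⟩
    rintro ⟨y, hy, i, e⟩
    rwa [e, one_pow, mul_one]

end H25.KH
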