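import Mathlib
import Cfsg.Agent.H25.PF4

/-!
`PF4.primeHyp_of_subgroups`: PF Hypothesis 4.2 in subgroup form gives `PrimeHyp K W₁.subtype W₂.subtype`.
-/

set_option autoImplicit false

open H05 H25 Cfsg

namespace H25

theorem PF4.primeHyp_of_subgroups {L : Type*} [Group L] [Finite L] {K W₁ W₂ : Subgroup L} [hK : K.Normal]
    (hKW₁ : K ⊓ W₁ = ⊥) (hKW₁' : K ⊔ W₁ = ⊤) (hW₁ : W₁ ≠ ⊥) (hW₁c : IsCyclic W₁)
    (hHall : Nat.Coprime (Nat.card W₁) W₁.index) (hW₂ : W₂ ≠ ⊥) (hW₂c : IsCyclic W₂) (hW₂K : W₂ ≤ K)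
    (hC : ∀ x ∈ W₁, x ≠ 1 → K ⊓ Subgroup.centralizer ({x} : Set L) = W₂) (hodd : Odd (Nat.card ↥(W₁ ⊔ W₂))) :
    PrimeHyp K W₁.subtype W₂.subtype := by
  have hc : K.IsComplement' W₁ := Subgroup.isComplement'_of_disjoint_and_mul_eq_univ
    (disjoint_iff.2 hKW₁) (by rw [← Subgroup.normal_mul, hKW₁', Subgroup.coe_top])
  refine ⟨hK, W₁.subtype_injective, W₂.subtype_injective, hW₁c, hW₂c, (Subgroup.nontrivial_iff_ne_bot _).2 hW₁,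
    (Subgroup.nontrivial_iff_ne_bot _).2 hW₂, hodd.of_dvd_nat (Subgroup.card_dvd_of_le le_sup_left),
    hodd.of_dvd_nat (Subgroup.card_dvd_of_le le_sup_right), by rwa [← hc.index_eq_card],
    by rwa [Subgroup.range_subtype], fun x hx k hk => ?_, by rwa [Subgroup.range_subtype]⟩
  rw [Subgroup.range_subtype, ← hC x x.2 (fun e => hx (Subtype.ext e)), Subgroup.mem_inf,
    Subgroup.mem_centralizer_singleton_iff]
  exact ⟨fun c => ⟨hk, c.symm⟩, fun c => c.2.symm⟩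

theorem PrimeHyp.inf_eq_bot {L : Type*} [Group L] {K W₁ W₂ : Subgroup L} (h : PrimeHyp K W₁.subtype W₂.subtype) :
    W₁ ⊓ W₂ = ⊥ := by
  rw [eq_bot_iff]
  intro x hx
  have := h.eq_one_of_mem (x := ⟨x, hx.1⟩) (h.mem₂ ⟨x, hx.2⟩)
  exact congrArg Subtype.val this

theorem PrimeHyp.comm' {L : Type*} [Group L] {K W₁ W₂ : Subgroup L} (h : PrimeHyp K W₁.subtype W₂.subtype) :
    ∀ a ∈ W₁, ∀ b ∈ W₂, a * b = b * a := fun a ha b hb => h.comm ⟨a, ha⟩ ⟨b, hb⟩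

/-- The converse of `cycHyp_of_selfNormalizing`. -/
theorem CycHyp.selfNormalizing {G : Type*} [Group G] {W₁ W₂ : Subgroup G} (h : CycHyp W₁.subtype W₂.subtype) :
    IsSelfNormalizingCyclic W₁ W₂ := by
  have hc : ∀ a ∈ W₁, ∀ b ∈ W₂, a * b = b * a := fun a ha b hb => h.comm ⟨a, ha⟩ ⟨b, hb⟩
  have hd : W₁ ⊓ W₂ = ⊥ := by
    rw [eq_bot_iff]
    intro x hx
    have := (PF3.mul_injective_of_coprime h.inj₁ h.inj₂ h.cop (x := ⟨x, hx.1⟩) (y := ⟨x, hx.2⟩⁻¹) (by simp)).1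
    exact congrArg Subtype.val this
  obtain ⟨e, he⟩ := PF3.exists_equiv_sup hd hc
  have hcyc : IsCyclic ↥(W₁ ⊔ W₂) := by
    have : IsCyclic (W₁ × W₂) := Group.isCyclic_prod_iff.2 ⟨h.cyc₁, h.cyc₂, h.cop⟩
    exact isCyclic_of_surjective e.toMonoidHom e.surjective
  refine ⟨(Subgroup.nontrivial_iff_ne_bot _).1 h.nt₁, (Subgroup.nontrivial_iff_ne_bot _).1 h.nt₂, hd, hc, hcyc,
    fun X hX ⟨v, hv⟩ => le_antisymm (fun g hg => ?_) fun g hg => ?_⟩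
  · obtain ⟨x, y, rfl⟩ := (PF3.mem_sup_iff hc).1 (hX hv).1
    obtain ⟨x', y', e'⟩ := (PF3.mem_sup_iff hc).1 (hX ((Subgroup.mem_set_normalizer_iff.1 hg _).1 hv)).1
    have hx : x ≠ 1 := by rintro rfl; exact (hX hv).2 (Or.inr (by simp))
    have hy : y ≠ 1 := by rintro rfl; exact (hX hv).2 (Or.inl (by simp))
    exact (PF3.mem_sup_iff hc).2 (h.ti x hx y hy g x' y' e')
  · have c : ∀ w ∈ W₁ ⊔ W₂, g * w * g⁻¹ = w := fun w hw => by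
      have := congrArg Subtype.val (mul_comm' (⟨g, hg⟩ : ↥(W₁ ⊔ W₂)) ⟨w, hw⟩)
      simp only [Subgroup.coe_mul] at this
      rw [this, mul_inv_cancel_right]
    refine Subgroup.mem_set_normalizer_iff.2 fun w => ⟨fun hw => by rwa [c w (hX hw).1], fun hw => ?_⟩
    have h1 : g * w * g⁻¹ ∈ W₁ ⊔ W₂ := (hX hw).1
    have h2 : w ∈ W₁ ⊔ W₂ := by
      simpa [mul_assoc] using (W₁ ⊔ W₂).mul_mem ((W₁ ⊔ W₂).mul_mem ((W₁ ⊔ W₂).inv_mem hg) h1) hg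
    rwa [c w h2] at hw

end H25
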