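import Mathlib
import Cfsg.Agent.H25.PF8
import Cfsg.Agent.H25.PF5b
import Cfsg.Agent.H25.PF9_11a
import Cfsg.Agent.BG.Api

/-!
PF 9.11 from 9.7-9.9: `H25.pf9_11_of`.
-/

set_option autoImplicit false

open H05 H25 BG Cfsg
open scoped ComplexConjugate

namespace H25

namespace PF9

variable {G : Type*} [Group G]

theorem exists_comm_sub {X Z : Subgroup G} (hZ : X ≤ N_(Z)) (v : G) :
    ∃ E : Subgroup G, ∀ x, x ∈ E ↔ x ∈ X ∧ x⁻¹ * (v * x * v⁻¹) ∈ Z :=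
  ⟨{ carrier := {x | x ∈ X ∧ x⁻¹ * (v * x * v⁻¹) ∈ Z}
     one_mem' := ⟨X.one_mem, by simp⟩
     mul_mem' := fun {a b} ha hb => ⟨X.mul_mem ha.1 hb.1, by
       convert Z.mul_mem (conj_mem_of_norm' (hZ hb.1) ha.2) hb.2 using 1; group⟩
     inv_mem' := fun {a} ha => ⟨X.inv_mem ha.1, by
       convert conj_mem_of_norm (hZ ha.1) (Z.inv_mem ha.2) using 1; group⟩ }, fun _ => Iff.rfl⟩

theorem exists_fix [Finite G] {H H₀ : Subgroup G} {y x : G} (hle : H₀ ≤ H) (hy : y ∈ N_(H₀)) (hx : x ∈ H)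
    (hx' : x ∉ H₀) (h : x⁻¹ * (y * x * y⁻¹) ∈ H₀) : ∃ z ∈ H, z ≠ 1 ∧ Commute y z := by
  by_contra hn
  push Not at hn
  have key : ∀ a ∈ H, ∀ b ∈ H, a⁻¹ * (y * a * y⁻¹) = b⁻¹ * (y * b * y⁻¹) → a = b := fun a ha b hb e => by
    rw [← mul_inv_eq_one]
    by_contra h1
    refine hn _ (H.mul_mem ha (H.inv_mem hb)) h1 ?_
    calc y * (a * b⁻¹) = a * (a⁻¹ * (y * a * y⁻¹)) * y * b⁻¹ := by group
      _ = a * b⁻¹ * y := by rw [e]; group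
  obtain ⟨z, hz⟩ := (Finite.injective_iff_surjective (f := fun a : H₀ => (⟨(a : G)⁻¹ * (y * a * y⁻¹),
    H₀.mul_mem (H₀.inv_mem a.2) (conj_mem_of_norm hy a.2)⟩ : H₀))).1
    (fun a b e => Subtype.ext (key _ (hle a.2) _ (hle b.2) (congrArg Subtype.val e))) ⟨_, h⟩
  exact hx' (key _ (hle z.2) _ hx (congrArg Subtype.val hz) ▸ z.2)

theorem cKer_cj {U X H₀ : Subgroup G} {w : G} (hU : w ∈ N_(U)) (h0 : w ∈ N_(H₀)) :
    cKer U (cj w X) H₀ = cj w (cKer U X H₀) := by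
  ext v
  rw [mem_cj, mem_cKer, mem_cKer]
  refine and_congr ?_ (and_congr ?_ ⟨fun h x hx => ?_, fun h x hx => ?_⟩)
  · rw [← mem_cj, cj_of_mem_norm hU]
  · rw [← mem_cj, cj_of_mem h0]
  · convert conj_mem_of_norm' h0 (h _ (conj_mem_cj w hx)) using 1; group
  · convert conj_mem_of_norm h0 (h _ (mem_cj.1 hx)) using 1; group

variable [Fintype G] {M W₁ U W₂ H₀ H₁ : Subgroup G} {p a : ℕ} (hP : IsTypePWith M W₁ U W₂)
  (hc : ChiefData M W₁ U W₂ H₀ p) (hA : CaseA M W₁ U H₀ H₁ p a)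

local notation "H" => fittingHallOf M
local notation "C" => cKer U (fittingHallOf M) H₀
local notation "U₁" => cKer U H₁ H₀
local notation "𝒮" => sM M ⁅M, M⁆ (fittingHallOf M)
local notation "q" => Nat.card W₁
local notation "u" => Subgroup.relIndex (cKer U (fittingHallOf M) H₀) U
local notation "K" => Subgroup.subgroupOf ⁅M, M⁆ M

include hP

theorem sd : Sdprod H U ⁅M, M⁆ := hP.U_compl.sdprod ((hP.U_compl.2.1.trans (der_le M)).trans (le_norm_fh M))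

theorem card_HV {V : Subgroup G} (hV : V ≤ U) : Nat.card ↥(H ⊔ V) = Nat.card H * Nat.card V :=
  ((sd hP).sub hV).card

theorem relIndex_HV {V : Subgroup G} (hV : V ≤ U) : (H ⊔ V).relIndex ⁅M, M⁆ = V.relIndex U := by
  have h1 := card_mul_relIndex (sup_le (sd hP).le_left (hV.trans (sd hP).le_right))
  rw [card_HV hP hV, (sd hP).card, ← card_mul_relIndex hV, ← mul_assoc] at h1
  exact Nat.eq_of_mul_eq_mul_left (mul_pos (card_pos _) (card_pos _)) h1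

theorem inf_HV {V : Subgroup G} (hV : V ≤ U) : U ⊓ (H ⊔ V) = V := by
  rw [sup_comm, dedekind hV (Or.inr (hV.trans (sd hP).norm)), inf_comm, (sd hP).disj, sup_bot_eq]

include hc hA

theorem Hw (w : W₁) :
    H₀ ≤ cj (w : G) H₁ ∧ cj (w : G) H₁ ≤ H ∧ H₀.relIndex (cj (w : G) H₁) = p ∧ U ≤ N_(cj (w : G) H₁) := by
  have h0 := cj_of_mem_norm (hc.norm (hP.W₁_le w.2))
  refine ⟨h0.ge.trans (cj_mono _ hA.le₀), cj_le_of_mem_norm hA.le₁ (le_norm_fh M (hP.W₁_le w.2)), ?_, ?_⟩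
  · rw [← hA.index, ← relIndex_cj (w : G) H₀ H₁, h0]
  · rw [← cj_norm, ← cj_of_mem_norm (hP.U_normal w.2)]; exact cj_mono _ hA.norm

theorem card_join (s : Finset W₁) : Nat.card ↥(H₀ ⊔ s.sup fun w => cj (w : G) H₁) ≤ Nat.card H₀ * p ^ s.card := by
  classical
  induction s using Finset.induction_on with
  | empty => simp
  | insert w s hw ih =>
    obtain ⟨h1, h2, h3, -⟩ := Hw hP hc hA w
    rw [Finset.sup_insert, sup_comm (cj _ _), ← sup_assoc, Finset.card_insert_of_notMem hw, pow_succ, ← mul_assoc]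
    have h4 := card_sup_mul (h2.trans (le_norm_of_der_le (hc.comm_le.trans le_sup_left) (sup_le hc.lt.le
      (Finset.sup_le (s := s) fun w _ => (Hw hP hc hA w).2.1))))
    rw [← card_mul_relIndex h1, h3] at h4
    refine Nat.le_of_mul_le_mul_right ((Nat.mul_le_mul_left _ (card_le (le_inf le_sup_left h1))).trans
      (h4.le.trans ?_)) (card_pos H₀)
    nlinarith [Nat.mul_le_mul_right (Nat.card H₀ * p) ih]

theorem exists_theta (hn : U ≤ N_(C)) (w : W₁) : ∃ θ : Dual ↥(H ⊔ C), H₀ ⊔ C ≤ θ.ker.map (H ⊔ C).subtype ∧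
    (∀ w' : W₁, w' ≠ w → cj (w' : G) H₁ ≤ θ.ker.map (H ⊔ C).subtype) ∧
      θ.ker.map (H ⊔ C).subtype ⊓ cj (w : G) H₁ ≤ H₀ := by
  classical
  set J := H₀ ⊔ (Finset.univ.erase w).sup fun w : W₁ => cj (w : G) H₁ with hJ
  have hJH : J ≤ H := sup_le hc.lt.le (Finset.sup_le fun w _ => (Hw hP hc hA w).2.1)
  have hCU : C ≤ U := fun _ h => h.1
  obtain ⟨h1, h2, h3, -⟩ := Hw hP hc hA w
  have hw' : ∀ w' : W₁, w' ≠ w → cj (w' : G) H₁ ≤ J := fun w' h => le_sup_of_le_right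
    (Finset.le_sup (f := fun w : W₁ => cj (w : G) H₁) (by simpa using h))
  obtain ⟨x, hx, hxJ⟩ : ∃ x ∈ cj (w : G) H₁, x ∉ J := by
    by_contra h4
    push Not at h4
    have h5 : H ≤ J := hA.gen.ge.trans (iSup_le fun w' => by
      by_cases e : w' = w
      · exact e ▸ h4
      · exact hw' w' e)
    have h6 := (card_le h5).trans (card_join hP hc hA _)
    rw [← card_mul_relIndex hc.lt.le, hc.card, Finset.card_erase_of_mem (Finset.mem_univ _), Finset.card_univ,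
      ← Nat.card_eq_fintype_card, Nat.mul_le_mul_left_iff (card_pos _),
      Nat.pow_le_pow_iff_right hc.prime.one_lt] at h6
    have := card_pos W₁
    omega
  have hCJ : C ≤ N_(J) := hCU.trans (norm_sup ((hP.U_compl.2.1.trans (der_le M)).trans hc.norm)
    (Finset.sup_induction (p := fun X : Subgroup G => U ≤ N_(X)) le_norm_bot (fun _ a _ b => norm_sup a b)
      fun w _ => (Hw hP hc hA w).2.2.2))
  have hHC : ⁅H, C⁆ ≤ H₀ := Subgroup.commutator_le.2 fun a ha b hb => by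
    convert hb.2.2 _ ((H).inv_mem ha) using 1; simp [commutatorElement_def, mul_assoc]
  have hder : ⁅H ⊔ C, H ⊔ C⁆ ≤ J ⊔ C := by
    have hJ0 : H₀ ≤ J ⊔ C := le_sup_of_le_left le_sup_left
    refine der_sup_le ?_ (norm_of_le le_sup_right) (hc.comm_le.trans hJ0) (hHC.trans hJ0)
      ((der_le _).trans le_sup_right)
    refine le_norm_iff.2 fun a ha k hk => ?_
    obtain ⟨j, hj, c, hc', rfl⟩ := (mem_sup_norm hCJ).1 hk
    have h7 := Subgroup.mul_mem _ (Subgroup.mul_mem _ (Subgroup.mem_sup_left (conj_mem_of_norm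
      (le_norm_of_der_le (hc.comm_le.trans le_sup_left) hJH ha) hj)) (hJ0 (hc'.2.2 _ ((H).inv_mem ha))))
      (Subgroup.mem_sup_right hc')
    convert h7 using 1; group
  obtain ⟨θ, hθ, hθ'⟩ := exists_lin_of_not_mem ((J ⊔ C).subgroupOf (H ⊔ C))
    (x := ⟨x, Subgroup.mem_sup_left (h2 hx)⟩) (by
      have h6 : commutator ↥(H ⊔ C) ≤ (J ⊔ C).subgroupOf (H ⊔ C) :=
        Subgroup.commutator_le.2 fun a _ b _ => hder (Subgroup.commutator_mem_commutator a.2 b.2)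
      rw [sup_eq_left.2 h6]
      intro h7
      have h8 : x ∈ H ⊓ (J ⊔ C) := ⟨h2 hx, h7⟩
      rw [dedekind hJH (Or.inl hCJ), BG.eq_bot_mono (sd hP).disj (inf_le_inf_left _ hCU), sup_bot_eq] at h8
      exact hxJ h8)
  have hle : J ⊔ C ≤ θ.ker.map (H ⊔ C).subtype := fun y hy =>
    ⟨⟨y, sup_le_sup_right hJH _ hy⟩, hθ' _ hy, rfl⟩
  have h0 : H₀ ≤ θ.ker.map (H ⊔ C).subtype ⊓ cj (w : G) H₁ :=
    le_inf ((le_sup_of_le_left le_sup_left).trans hle) h1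
  refine ⟨θ, (sup_le_sup_right le_sup_left _).trans hle, fun w' h => (le_sup_of_le_left (hw' w' h)).trans hle, ?_⟩
  have h9 := relIndex_mul h0 inf_le_right
  rw [h3] at h9
  rcases (Nat.prime_mul_iff.1 (h9 ▸ hc.prime)) with ⟨-, h⟩ | ⟨-, h⟩
  · obtain ⟨y, hy, e⟩ := (Subgroup.relIndex_eq_one.1 h hx).1
    exact absurd (by rwa [← Subtype.ext (a2 := ⟨x, _⟩) e]) hθ
  · exact Subgroup.relIndex_eq_one.1 h

theorem C_le_U₁ : C ≤ U₁ := fun _ h => ⟨h.1, h.2.1, fun x hx => h.2.2 x (hA.le₁ hx)⟩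

/-- PF 9.11.2. -/
theorem ti_U₁ (hq : (q).Prime) (n1 : M ≤ N_(H₀ ⊔ ⁅C, C⁆)) (n2 : M ≤ N_(H ⊔ C)) (n5 : ⁅U, U⁆ ≤ C) (n6 : U ≤ N_(C))
    (hne : a ≠ u) (hd : ∀ φ ∈ 𝒮 (H₀ ⊔ ⁅C, C⁆), φ 1 = (q * a : ℕ) ∨ φ 1 = (q * u : ℕ)) {w : G} (hw : w ∈ W₁)
    (hw1 : w ≠ 1) : U₁ ⊓ cj w U₁ ≤ C := by
  have hCU : C ≤ U := fun _ h => h.1
  have hU₁ : U₁ ≤ U := fun _ h => h.1
  have hUM : U ≤ M := hP.U_compl.2.1.trans (der_le M)
  obtain ⟨θ₁, a1, a2, a3⟩ := exists_theta hP hc hA n6 1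
  obtain ⟨θ₂, b1, b2, b3⟩ := exists_theta hP hc hA n6 ⟨w, hw⟩
  have hw1' : (⟨w, hw⟩ : W₁) ≠ 1 := fun e => hw1 (congrArg Subtype.val e)
  set Z := (θ₁ * θ₂).ker.map (H ⊔ C).subtype with hZ
  have z1 : θ₁.ker.map (H ⊔ C).subtype ⊓ θ₂.ker.map (H ⊔ C).subtype ≤ Z := by
    rintro _ ⟨⟨x, hx, rfl⟩, ⟨y, hy, e⟩⟩
    obtain rfl := Subtype.ext e
    exact ⟨y, by simpa [MonoidHom.mem_ker.1 hx] using hy, rfl⟩
  have z2 : Z ⊓ H₁ ≤ H₀ := by
    rintro _ ⟨⟨x, hx, rfl⟩, h1⟩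
    obtain ⟨y, hy, e⟩ := b2 1 hw1'.symm (by simpa using h1)
    obtain rfl := Subtype.ext e
    exact a3 ⟨⟨y, by simpa [MonoidHom.mem_ker.1 hy] using hx, rfl⟩, by simpa using h1⟩
  have z3 : Z ⊓ cj w H₁ ≤ H₀ := by
    rintro _ ⟨⟨x, hx, rfl⟩, h1⟩
    obtain ⟨y, hy, e⟩ := a2 _ hw1' h1
    obtain rfl := Subtype.ext e
    exact b3 ⟨⟨y, by simpa [MonoidHom.mem_ker.1 hy] using hx, rfl⟩, h1⟩
  have z0 : H₀ ⊔ C ≤ Z := (le_inf a1 b1).trans z1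
  have hle : H ⊔ C ≤ ⁅M, M⁆ := sup_le (sd hP).le_left (hCU.trans (sd hP).le_right)
  have nn : ∀ {X : Subgroup G}, M ≤ N_(X) → ((X.subgroupOf M).subgroupOf K).Normal := fun h =>
    (Subgroup.normal_subgroupOf_of_le_normalizer h).subgroupOf _
  have := nn n2
  let f : ((H ⊔ C).subgroupOf M).subgroupOf K →* ↥(H ⊔ C) :=
    ((M.subtype.comp (K).subtype).comp (Subgroup.subtype _)).codRestrict _ fun x => x.2
  obtain ⟨χ, e, h1, h2, h3, h4⟩ := exists_irr_over_lin (((H ⊔ C).subgroupOf M).subgroupOf K)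
    (fun x y => ((sd hP).der_le_sup.trans (sup_le_sup_left n5 _))
      (Subgroup.commutator_mem_commutator x.2 y.2)) ((θ₁ * θ₂).comp f)
  set T := H06.inertia (((H ⊔ C).subgroupOf M).subgroupOf K) fun x => (((θ₁ * θ₂).comp f) x : ℂ) with hT
  have hTi : ∀ g : K, g ∈ T ↔ ∀ x ∈ H ⊔ C, x⁻¹ * (((g : M) : G) * x * ((g : M) : G)⁻¹) ∈ Z := fun g => by
    rw [hT, H06.mem_inertia']
    refine ⟨fun h x hx => ⟨(f ⟨⟨⟨x, der_le M (hle hx)⟩, hle hx⟩, hx⟩)⁻¹ * f ⟨_, this.conj_mem _ (show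
      (⟨⟨x, der_le M (hle hx)⟩, hle hx⟩ : K) ∈ ((H ⊔ C).subgroupOf M).subgroupOf K from hx) g⟩, ?_, rfl⟩,
      fun h n => ?_⟩
    · have := Units.ext (h ⟨⟨⟨x, der_le M (hle hx)⟩, hle hx⟩, hx⟩)
      rw [SetLike.mem_coe, MonoidHom.mem_ker, map_mul, map_inv, inv_mul_eq_one]; exact this.symm
    · obtain ⟨y, hy, e⟩ := h _ n.2
      obtain rfl : y = (f n)⁻¹ * f ⟨_, this.conj_mem _ n.2 g⟩ := Subtype.ext e
      rw [SetLike.mem_coe, MonoidHom.mem_ker, map_mul, map_inv, inv_mul_eq_one] at hy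
      exact congrArg Units.val hy.symm
  have hNT : ((H ⊔ C).subgroupOf M).subgroupOf K ≤ T :=
    H06.le_inertia _ (isIrrCharacter_monoidHom _).isClassFunction
  have hφ : indFun K χ ∈ 𝒮 (H₀ ⊔ ⁅C, C⁆) := by
    refine mem_sInd.2 ⟨χ, h1, (h4 _ (nn n1) fun x hx => sup_le_sup hc.lt.le (der_le _) hx).2 fun x hx => ?_,
      fun h => ?_, rfl⟩
    · obtain ⟨y, hy, e⟩ := z0 (sup_le_sup_left (der_le _) _ hx)
      obtain rfl : y = f x := Subtype.ext e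
      exact hy
    · have h5 := (h4 _ (nn (le_norm_fh M)) fun x hx => Subgroup.mem_sup_left hx).1 h
      have h6 : H₁ ≤ H₀ := fun x hx => z2 ⟨⟨_, h5 ⟨⟨⟨x, fh_le M (hA.le₁ hx)⟩, (sd hP).le_left (hA.le₁ hx)⟩,
        Subgroup.mem_sup_left (hA.le₁ hx)⟩ (hA.le₁ hx), rfl⟩, hx⟩
      exact hc.prime.one_lt.ne' (hA.index.symm.trans (Subgroup.relIndex_eq_one.2 h6))
  have hTU : ∀ v (hv : v ∈ U), (⟨⟨v, hUM hv⟩, (sd hP).le_right hv⟩ : K) ∈ T → v ∈ U₁ ⊓ cj w U₁ := fun v hv h => by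
    rw [← cKer_cj (hP.U_normal hw) (hc.norm (hP.W₁_le hw))]
    obtain ⟨-, c2, -, c4⟩ := Hw hP hc hA ⟨w, hw⟩
    exact ⟨⟨hv, hc.norm (hUM hv), fun x hx => z2 ⟨(hTi _).1 h x (Subgroup.mem_sup_left (hA.le₁ hx)),
      H₁.mul_mem (H₁.inv_mem hx) (conj_mem_of_norm (hA.norm hv) hx)⟩⟩,
      hv, hc.norm (hUM hv), fun x hx => z3 ⟨(hTi _).1 h x (Subgroup.mem_sup_left (c2 hx)),
      Subgroup.mul_mem _ (Subgroup.inv_mem _ hx) (conj_mem_of_norm (c4 hv) hx)⟩⟩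
  have hi : ∀ {V : Subgroup G}, V ≤ U → (((H ⊔ V).subgroupOf M).subgroupOf K).index = V.relIndex U := fun hV =>
    (Subgroup.relIndex_subgroupOf (der_le M)).trans (relIndex_HV hP hV)
  have h5 := hd _ hφ
  rw [H06.indFun_one, hP.index_der, h3, ← Nat.cast_mul, Nat.cast_inj, Nat.cast_inj,
    Nat.mul_right_inj (card_ne_zero _), Nat.mul_right_inj (card_ne_zero _)] at h5
  rcases h5 with h5 | h5
  · have h6 : T ≤ ((H ⊔ U₁).subgroupOf M).subgroupOf K := fun g hg => by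
      obtain ⟨k, hk, v, hv, e⟩ := (sd hP).mem.1 (show ((g : M) : G) ∈ _ from g.2)
      have h7 := T.mul_mem (T.inv_mem (hNT (x := ⟨⟨k, fh_le M hk⟩, (sd hP).le_left hk⟩)
        (Subgroup.mem_sup_left hk))) hg
      change ((g : M) : G) ∈ H ⊔ U₁
      rw [← e]
      refine Subgroup.mul_mem_sup hk (hTU v hv ?_).1
      convert h7 using 1
      exact Subtype.ext (Subtype.ext (by simp [← e]))
    have h7 := Subgroup.index_dvd_of_le h6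
    rw [hi hU₁, ← hA.a_eq] at h7
    have h8 : T = ((H ⊔ U₁).subgroupOf M).subgroupOf K := Subgroup.eq_of_le_of_card_ge h6 (by
      refine Nat.le_of_mul_le_mul_right ?_ (Nat.pos_of_ne_zero T.index_ne_zero_of_finite)
      rw [T.card_mul_index, Nat.dvd_antisymm (Dvd.intro _ h5) h7, hA.a_eq, ← hi hU₁,
        Subgroup.card_mul_index])
    have h9 : W₁ ≤ N_(U₁) := by
      rw [← zpowers_eq_of_prime hq hw hw1, Subgroup.zpowers_le]
      exact mem_norm_of_le_cj fun v hv => (hTU v hv.1 (h8.ge (Subgroup.mem_sup_right hv))).2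
    refine inf_le_left.trans fun v hv => ⟨hv.1, hv.2.1, fun x hx => ?_⟩
    obtain ⟨E, hE⟩ := exists_comm_sub ((fh_le M).trans hc.norm) v
    refine ((hE x).1 (hA.gen.ge.trans (iSup_le fun w' y hy => (hE y).2 ⟨(Hw hP hc hA w').2.1 hy, ?_⟩) hx)).2
    rw [← cj_of_mem_norm (h9 w'.2), ← cKer_cj (hP.U_normal w'.2) (hc.norm (hP.W₁_le w'.2))] at hv
    exact hv.2.2 y hy
  rw [← hi hCU, ← Subgroup.relIndex_mul_index hNT, mul_comm,
    Nat.mul_left_inj T.index_ne_zero_of_finite] at h5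
  rw [← h5] at h2
  have h6 : e = 1 := by
    have : e ≠ 0 := h5 ▸ Subgroup.index_ne_zero_of_finite
    nlinarith [Nat.pos_of_ne_zero this]
  intro v hv
  have hvU : v ∈ U := hv.1.1
  refine (inf_HV hP hCU).le ⟨hvU, Subgroup.relIndex_eq_one.1 (h5.symm.trans h6)
    (x := ⟨⟨v, hUM hvU⟩, (sd hP).le_right hvU⟩) ((hTi _).2 fun x hx => ?_)⟩
  obtain ⟨E, hE⟩ := exists_comm_sub (X := H ⊔ C) (Z := Z) (le_norm_iff.2 (by
    rintro x hx _ ⟨y, hy, rfl⟩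
    exact ⟨_, (MonoidHom.normal_ker _).conj_mem y hy ⟨x, hx⟩, rfl⟩)) v
  refine ((hE x).1 (sup_le (hA.gen.ge.trans (iSup_le fun w' y hy => ?_)) (fun y hy => ?_) hx)).2
  · obtain ⟨-, c2, -, c4⟩ := Hw hP hc hA w'
    refine (hE y).2 ⟨Subgroup.mem_sup_left (c2 hy), ?_⟩
    by_cases e1 : w' = 1
    · exact z0 (Subgroup.mem_sup_left (hv.1.2.2 y (by simpa [e1] using hy)))
    by_cases e2 : w' = ⟨w, hw⟩
    · rw [← cKer_cj (hP.U_normal hw) (hc.norm (hP.W₁_le hw))] at hv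
      exact z0 (Subgroup.mem_sup_left (hv.2.2.2 y (by rw [e2] at hy; exact hy)))
    · exact (le_inf (a2 w' e1) (b2 w' e2)).trans z1
        (Subgroup.mul_mem _ (Subgroup.inv_mem _ hy) (conj_mem_of_norm (c4 hvU) hy))
  · exact (hE y).2 ⟨Subgroup.mem_sup_right hy, z0 (Subgroup.mem_sup_right
      (Subgroup.mul_mem _ (Subgroup.inv_mem _ hy) (conj_mem_of_norm (n6 hvU) hy)))⟩

theorem gam_supp {A : Set M} (hAm : ∀ k ∈ K, k ≠ 1 → (∃ h ∈ (H).subgroupOf M, h ≠ 1 ∧ Commute k h) → k ∈ A) :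
    SuppIn (indFun ((H ⊔ U₁).subgroupOf M) 1) (insert 1 A) := by
  intro x hx
  rw [Set.mem_insert_iff, not_or] at hx
  refine H06.indFun_eq_zero_of_forall _ _ _ fun g hg => absurd ?_ hx.2
  have hUM : U ≤ M := hP.U_compl.2.1.trans (der_le M)
  have h1 : H ⊔ U₁ ≤ cKer ⁅M, M⁆ H₁ H₀ := sup_le (fun y hy => ⟨(sd hP).le_left hy, hc.norm (fh_le M hy),
    fun z hz => hc.comm_le (by
      simpa [commutatorElement_def, mul_assoc] using
        Subgroup.commutator_mem_commutator ((H).inv_mem (hA.le₁ hz)) hy)⟩)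
    fun y hy => ⟨(sd hP).le_right hy.1, hy.2⟩
  obtain ⟨y, hy, hy'⟩ : ∃ y ∈ H₁, y ∉ H₀ := by
    by_contra h
    push Not at h
    exact hc.prime.one_lt.ne' (hA.index.symm.trans (Subgroup.relIndex_eq_one.2 h))
  obtain ⟨h2, h3, h4⟩ := h1 hg
  obtain ⟨z, hz, hz1, e⟩ := exists_fix hc.lt.le h3 (hA.le₁ hy) hy' (h4 y hy)
  refine hAm x (show (x : G) ∈ ⁅M, M⁆ by simpa [mul_assoc] using conj_mem_of_norm (le_norm_der M g.2) h2) hx.1
    ⟨g * ⟨z, fh_le M hz⟩ * g⁻¹, conj_mem_of_norm (G := G) (le_norm_fh M g.2) hz, fun e => hz1 ?_, Subtype.ext ?_⟩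
  · simpa using congrArg Subtype.val e
  · have e' : (g : G)⁻¹ * x * g * z = z * ((g : G)⁻¹ * x * g) := e
    change (x : G) * (g * z * (g : G)⁻¹) = g * z * (g : G)⁻¹ * x
    calc (x : G) * (g * z * (g : G)⁻¹) = g * ((g : G)⁻¹ * x * g * z) * (g : G)⁻¹ := by group
      _ = _ := by rw [e']; group

theorem nsq_gam (n5 : ⁅U, U⁆ ≤ C) (hti : ∀ w ∈ W₁, w ≠ 1 → U₁ ⊓ cj w U₁ ≤ C) :
    nsq (indFun ((H ⊔ U₁).subgroupOf M) 1) * u ≤ a * u + (((q : ℕ) : ℝ) - 1) * a ^ 2 := by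
  have hU₁ : U₁ ≤ U := fun _ h => h.1
  have hCU : C ≤ U := fun _ h => h.1
  have sdM : Sdprod ⁅M, M⁆ W₁ M := hP.W₁_compl.sdprod (hP.W₁_le.trans (le_norm_der M))
  have hle : ∀ {V : Subgroup G}, V ≤ U → H ⊔ V ≤ ⁅M, M⁆ := fun hV =>
    sup_le (sd hP).le_left (hV.trans (sd hP).le_right)
  have key := @nsq_ind_one_le _ _ _ ((H ⊔ U₁).subgroupOf M) ((H ⊔ C).subgroupOf M) K (by
    intro g hg x hx hgx
    obtain ⟨k, hk, w, hw, e⟩ := sdM.mem.1 g.2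
    have h1 : w * x * w⁻¹ ∈ H ⊔ U₁ := by
      convert conj_mem_of_norm' (le_norm_of_der_le ((sd hP).der_le_sup.trans
        (sup_le_sup_left (n5.trans (C_le_U₁ hP hc hA)) _)) (hle hU₁) hk) hgx using 1
      change _ = k⁻¹ * ((g : G) * x * (g : G)⁻¹) * k
      rw [← e]; group
    obtain ⟨y, hy, v, hv, e'⟩ := ((sd hP).sub hU₁).mem.1 (show (x : G) ∈ _ from hx)
    have h2 : w * v * w⁻¹ ∈ H ⊔ U₁ := by
      convert Subgroup.mul_mem _ (Subgroup.mem_sup_left (conj_mem_of_norm (le_norm_fh M (hP.W₁_le hw))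
        ((H).inv_mem hy))) h1 using 1
      rw [← e']; group
    change (x : G) ∈ H ⊔ C
    rw [← e']
    refine Subgroup.mul_mem_sup hy (hti w⁻¹ (W₁.inv_mem hw) (fun e1 => hg ?_) ⟨hv, mem_cj_inv.2
      ((inf_HV hP hU₁).le ⟨conj_mem_of_norm (hP.U_normal hw) hv.1, h2⟩)⟩)
    change (g : G) ∈ ⁅M, M⁆
    rwa [← e, inv_eq_one.1 e1, mul_one])
  have e1 := card_mul_relIndex (hle hU₁)
  have e2 := card_mul_relIndex (hle hCU)
  rw [relIndex_HV hP hU₁, ← hA.a_eq] at e1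
  rw [relIndex_HV hP hCU] at e2
  rw [Nat.card_congr (Subgroup.subgroupOfEquivOfLe ((hle hU₁).trans (der_le M))).toEquiv,
    Nat.card_congr (Subgroup.subgroupOfEquivOfLe ((hle hCU).trans (der_le M))).toEquiv,
    Nat.card_congr (Subgroup.subgroupOfEquivOfLe (der_le M)).toEquiv, sdM.card] at key
  have e3 : (Nat.card ↥(H ⊔ C) : ℝ) * u = Nat.card ↥(H ⊔ U₁) * a := by exact_mod_cast e2.trans e1.symm
  rw [← e1] at key
  push_cast at key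
  have hX : (0 : ℝ) < Nat.card ↥(H ⊔ U₁) := by exact_mod_cast card_pos _
  refine le_of_mul_le_mul_right ?_ (pow_pos hX 2)
  have := mul_le_mul_of_nonneg_right key (Nat.cast_nonneg (α := ℝ) u)
  linear_combination this + Nat.card ↥(H ⊔ U₁) * a * (((q : ℕ) : ℝ) - 1) * e3

omit hA in
theorem sum_sq (n1 : M ≤ N_(H₀ ⊔ C)) :
    ∑ φ ∈ 𝒮 (H₀ ⊔ C), (φ 1).re ^ 2 / nsq φ = (q : ℕ) * ((p : ℝ) ^ q * u - u) := by
  have hCU : C ≤ U := fun _ h => h.1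
  have := Subgroup.normal_subgroupOf_of_le_normalizer n1
  have := Subgroup.normal_subgroupOf_of_le_normalizer (le_norm_fh M)
  have := Subgroup.normal_subgroupOf_of_le_normalizer (le_norm_der M)
  have hle : H ⊔ C ≤ ⁅M, M⁆ := sup_le (sd hP).le_left (hCU.trans (sd hP).le_right)
  have h0 : H₀ ⊔ C ≤ H ⊔ C := sup_le_sup_right hc.lt.le _
  have h1 : (H₀ ⊔ C).relIndex (H ⊔ C) = p ^ q := by
    have := card_mul_relIndex h0
    rw [card_HV hP hCU, card_sup_of_disj (show C ≤ _ from fun _ h => h.2.1)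
      (BG.eq_bot_mono (sd hP).disj (inf_le_inf hc.lt.le hCU)), ← card_mul_relIndex hc.lt.le, hc.card,
      mul_right_comm _ (p ^ q)] at this
    exact Nat.eq_of_mul_eq_mul_left (mul_pos (card_pos _) (card_pos _)) this
  rw [sInd_sum_sq (Subgroup.subgroupOf_mono M (sd hP).le_left) (Subgroup.subgroupOf_mono M (h0.trans hle)),
    hP.index_der, ← Subgroup.subgroupOf_sup (fh_le M) ((h0.trans hle).trans (der_le M)), ← sup_assoc,
    sup_eq_left.2 hc.lt.le, Subgroup.relIndex_subgroupOf (der_le M), Subgroup.relIndex_subgroupOf (der_le M),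
    ← relIndex_mul h0 hle, h1, relIndex_HV hP hCU]
  push_cast; rfl

omit hA in
theorem deg_le (n2 : M ≤ N_(H₀ ⊔ ⁅C, C⁆)) {φ : M → ℂ} (hφ : φ ∈ 𝒮 (H₀ ⊔ ⁅C, C⁆)) : (φ 1).re ≤ (q * u : ℕ) := by
  have hCU : C ≤ U := fun _ h => h.1
  obtain ⟨θ, hθ, hk, -, rfl⟩ := mem_sInd.1 hφ
  have hHC : ⁅H, C⁆ ≤ H₀ := Subgroup.commutator_le.2 fun a ha b hb => by
    convert hb.2.2 _ ((H).inv_mem ha) using 1; simp [commutatorElement_def, mul_assoc]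
  have hle : H ⊔ C ≤ M := sup_le (fh_le M) (hCU.trans ((sd hP).le_right.trans (der_le M)))
  have hder : ⁅H ⊔ C, H ⊔ C⁆ ≤ H₀ ⊔ ⁅C, C⁆ := der_sup_le ((le_sup_left.trans hle).trans n2)
    ((le_sup_right.trans hle).trans n2) (hc.comm_le.trans le_sup_left) (hHC.trans le_sup_left) le_sup_right
  have := irr_one_sq_le hθ (((H₀ ⊔ ⁅C, C⁆).subgroupOf M).subgroupOf K) (((H ⊔ C).subgroupOf M).subgroupOf K) _
    (fun _ hx => sup_le_sup hc.lt.le (der_le _) hx) le_rfl 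
    (fun c hc b hb => conj_mem_of_norm (G := G) (n2 (hle hc)) hb)
    (fun d hd c hc => hder (Subgroup.commutator_mem_commutator hd hc)) hk
  rw [Subgroup.relIndex_self, show (((H ⊔ C).subgroupOf M).subgroupOf K).index = u from
    (Subgroup.relIndex_subgroupOf (der_le M)).trans (relIndex_HV hP hCU), Nat.cast_one, mul_one] at this
  rw [H06.indFun_one, hP.index_der, Nat.cast_mul, ← Complex.ofReal_natCast, Complex.re_ofReal_mul]
  exact mul_le_mul_of_nonneg_left (le_of_sq_le_sq this (Nat.cast_nonneg _)) (Nat.cast_nonneg _)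

end PF9

open PF9

variable {G : Type*} [Group G] [Fintype G] {M W₁ U W₂ H₀ : Subgroup G} {p : ℕ}

local notation "H" => fittingHallOf M
local notation "C" => cKer U (fittingHallOf M) H₀
local notation "𝒮" => sM M ⁅M, M⁆ (fittingHallOf M)
local notation "q" => Nat.card W₁
local notation "u" => Subgroup.relIndex (cKer U (fittingHallOf M) H₀) U
local notation "K" => Subgroup.subgroupOf ⁅M, M⁆ M

/-- PF 9.11, from `pf9_norm_C`, `pf9_7`, `pf9_8a`, `pf9_8c`, `pf9_8d`, `pf9_9a`. -/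
theorem pf9_11_of (hG : IsMinSimpleOddOrder G) (hM : IsCoatom M) (hP : IsTypePWith M W₁ U W₂) (hU : U ≠ ⊥)
    (hc : ChiefData M W₁ U W₂ H₀ p)
    (hn : M ≤ N_(H₀ ⊔ C) ∧ M ≤ N_(H ⊔ C) ∧ M ≤ N_(H₀ ⊔ ⁅C, C⁆) ∧ M ≤ N_(H₀ ⊔ ⁅U, U⁆) ∧ ⁅U, U⁆ ≤ C ∧ U ⊔ W₁ ≤ N_(C))
    (h7 : (∃ H₁ a, CaseA M W₁ U H₀ H₁ p a) ∨ CaseB M W₁ U W₂ H₀ p)
    (h8a : ∀ {H₁ : Subgroup G} {a : ℕ}, CaseA M W₁ U H₀ H₁ p a → ∀ {φ : M → ℂ}, φ ∈ 𝒮 H₀ →
      ∃ n : ℕ, φ 1 = (q * a * n : ℕ))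
    (h8c : ∀ {H₁ : Subgroup G} {a : ℕ}, CaseA M W₁ U H₀ H₁ p a →
      ∃ φ ∈ 𝒮 (H₀ ⊔ C), IsIrr φ ∧ φ 1 = (q * u : ℕ) ∧ IndLin M (H ⊔ C) φ)
    (h8d : ∀ {H₁ : Subgroup G} {a : ℕ}, CaseA M W₁ U H₀ H₁ p a → (p - 1) * ⁅U, U⁆.relIndex U ≤
      a ^ 2 * Nat.card {φ : M → ℂ // φ ∈ 𝒮 (H₀ ⊔ ⁅U, U⁆) ∧ IsIrr φ ∧ φ 1 = (q * a : ℕ)})
    (h9a : CaseB M W₁ U W₂ H₀ p → ∀ {φ : M → ℂ}, (φ ∈ 𝒮 H₀ → ∃ n : ℕ, φ 1 = (q * u * n : ℕ)) ∧
      (φ ∈ 𝒮 (H₀ ⊔ ⁅C, C⁆) → φ 1 = (q * u : ℕ) ∧ IndLin M (H ⊔ C) φ)) :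
    Coh (𝒮 (H₀ ⊔ ⁅C, C⁆) : Set (M → ℂ)) (ftDade M) := by
  classical
  obtain ⟨n1, n2, n3, -, n5, n6⟩ := hn
  have hD := ft_primeDade hG hM hP (Or.inl rfl)
  obtain ⟨R, hR, -⟩ := hD.subCoh (mFT_odd hG M)
  set S := 𝒮 (H₀ ⊔ ⁅C, C⁆) with hS
  have hS0 : S ⊆ sInd K ((H).subgroupOf M) ⊥ := sInd_mono le_rfl bot_le
  have h : SubCoh (S : Set (M → ℂ)) (ftDade M) R := hR.mono hS0 fun _ => sInd_conj
  rcases h7 with ⟨H₁, a, hA⟩ | hB
  swap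
  · exact h.coh_of_deg fun χ hχ φ hφ => ((h9a hB).2 hχ).1.trans ((h9a hB).2 hφ).1.symm
  by_contra hn
  have hCU : C ≤ U := fun _ h => h.1
  have mono : ∀ {X Y : Subgroup G}, X ≤ Y → 𝒮 Y ⊆ 𝒮 X := fun h => sInd_mono le_rfl (Subgroup.subgroupOf_mono M h)
  set I := (𝒮 (H₀ ⊔ ⁅U, U⁆)).filter fun φ => IsIrr φ ∧ φ 1 = (q * a : ℕ) with hI
  have hIS : I ⊆ S := (Finset.filter_subset _ _).trans (mono (sup_le_sup_left (der_mono hCU) _))
  have hIc : ∀ χ ∈ I, conjFun χ ∈ I := fun χ hχ => by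
    obtain ⟨h1, h2, h3⟩ := Finset.mem_filter.1 hχ
    exact Finset.mem_filter.2 ⟨sInd_conj h1, irr_conj h2, (ch_conj_one h2.isCharacter).trans h3⟩
  have hId : ∀ χ ∈ I, χ 1 = (q * a : ℕ) := fun χ hχ => (Finset.mem_filter.1 hχ).2.2
  have hIi : ∀ χ ∈ I, IsIrr χ := fun χ hχ => (Finset.mem_filter.1 hχ).2.1
  have hcI := h8d hA
  rw [Nat.subtype_card I (by simp [hI])] at hcI
  have hq := (ft_typeII_IV hG hM hP hU).1
  have hq3 := mFT_three_le hG hq dvd_rfl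
  have ha := hA.one_lt
  have hu : 0 < u := Nat.pos_of_ne_zero (relIndex_ne_zero _ _)
  have hp : Odd p := ((mFT_odd hG H).of_dvd_nat (hc.card ▸ relIndex_dvd_card _ _)).of_dvd_nat
    (dvd_pow_self _ hq.ne_zero)
  have h2a : 2 * a ≤ p - 1 := Nat.le_of_dvd (by have := hc.prime.two_le; omega)
    ((Nat.coprime_two_left.2 ((mFT_odd hG U).of_dvd_nat (hA.a_eq ▸ relIndex_dvd_card _ _))).mul_dvd_of_dvd_of_dvd
      (Nat.Odd.sub_odd hp odd_one).two_dvd hA.a_dvd)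
  have hu' : u ≤ ⁅U, U⁆.relIndex U :=
    Nat.le_of_dvd (Nat.pos_of_ne_zero (relIndex_ne_zero _ _)) (relIndex_dvd_left U n5)
  have h1 : (p - 1) * u ≤ a ^ 2 * I.card := (Nat.mul_le_mul_left _ hu').trans hcI
  have h2 : 2 * a * u ≤ (p - 1) * u := Nat.mul_le_mul_right _ h2a
  obtain ⟨ψ₁, hψ₁⟩ : I.Nonempty := Finset.card_pos.1 (Nat.pos_of_ne_zero fun e => by
    rw [e] at h1; have : 0 < 2 * a * u := by positivity
    omega)
  obtain ⟨ν, hν⟩ := (h.mono hIS hIc).coh_of_deg fun χ hχ φ hφ => (hId χ hχ).trans (hId φ hφ).symm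
  obtain ⟨S₂, s1, s2, s3, s4, ⟨χ₀, hχ₀, hχ₀'⟩, s5⟩ := exists_max h hIS hIc ⟨ν, hν⟩ hn
  have fI : ∑ φ ∈ I, (φ 1).re ^ 2 / nsq φ = I.card * ((q : ℕ) * a : ℝ) ^ 2 := by
    rw [Finset.sum_congr rfl (g := fun _ => ((q : ℕ) * a : ℝ) ^ 2) fun φ hφ => by
      rw [hId φ hφ, irr_nsq (hIi φ hφ), div_one, Complex.natCast_re, Nat.cast_mul], Finset.sum_const, nsmul_eq_mul]
  have fpos : ∀ φ ∈ S, 0 < (φ 1).re ^ 2 / nsq φ := fun φ hφ =>
    div_pos (pow_pos (ch_re_pos (sInd_isCh hφ) (sInd_ne_zero hφ)) 2) (nsq_pos (sInd_ne_zero hφ))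
  have hqa : (0 : ℝ) < (q : ℕ) * a := by positivity
  have key : ∀ χ ∈ S, χ ∉ S₂ → S₂ ⊆ I ∧ χ 1 = (q * u : ℕ) ∧ a ^ 2 * I.card ≤ 2 * a * u := fun χ hχ hχ' => by
    obtain ⟨n, hn⟩ := h8a hA (mono le_sup_left hχ)
    have h3 := not_lt.1 fun hlt => s5 χ hχ hχ' (h.extend s2 s3 s4 hχ hχ' (s1 hψ₁) (a := n)
      (by rw [hn, hId _ hψ₁]; push_cast; ring) hlt)
    have h4 := deg_le hP hc n3 hχ
    rw [← Finset.sum_sdiff s1, fI, hId _ hψ₁, Complex.natCast_re] at h3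
    have h5 : 0 ≤ ∑ φ ∈ S₂ \ I, (φ 1).re ^ 2 / nsq φ :=
      Finset.sum_nonneg fun φ hφ => (fpos φ (s2 (Finset.mem_sdiff.1 hφ).1)).le
    have h6 : (2 * a * u : ℝ) ≤ a ^ 2 * I.card := by exact_mod_cast h2.trans h1
    have h7 := mul_le_mul_of_nonneg_left h6 (sq_nonneg ((q : ℕ) : ℝ))
    have h8 := mul_le_mul_of_nonneg_left h4 hqa.le
    push_cast at h3 h4 h8
    refine ⟨Finset.sdiff_eq_empty_iff_subset.1 (by_contra fun h9 => ?_), ?_, ?_⟩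
    · have := Finset.sum_pos (fun φ hφ => fpos φ (s2 (Finset.mem_sdiff.1 hφ).1))
        (Finset.nonempty_iff_ne_empty.2 h9)
      nlinarith
    · rw [← ch_ofReal_re (sInd_isCh hχ), le_antisymm h4 (le_of_mul_le_mul_left (by nlinarith) hqa)]
      push_cast; rfl
    · have h9 : (a ^ 2 * I.card : ℝ) ≤ 2 * a * u :=
        le_of_mul_le_mul_left (a := ((q : ℕ) : ℝ) ^ 2) (by nlinarith) (by positivity)
      exact_mod_cast h9
  obtain ⟨k1, -, k2⟩ := key χ₀ hχ₀ hχ₀'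
  obtain rfl : S₂ = I := Finset.Subset.antisymm k1 s1
  have hp' : p = 2 * a + 1 := by
    have := Nat.le_of_mul_le_mul_right (h1.trans k2) hu
    have := hc.prime.two_le
    omega
  obtain ⟨m, hm⟩ : a ∣ u := hA.a_eq ▸ relIndex_dvd_left U (C_le_U₁ hP hc hA)
  have hdeg : ∀ φ ∈ S, φ 1 = (q * a : ℕ) ∨ φ 1 = (q * u : ℕ) := fun φ hφ =>
    (em (φ ∈ I)).imp (hId φ) fun h' => (key φ hφ h').2.1
  have hne : a ≠ u := fun e => hn (h.coh_of_deg fun χ hχ φ hφ => by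
    rw [← e] at hdeg; simp only [or_self] at hdeg; rw [hdeg χ hχ, hdeg φ hφ])
  have hm1 : 1 < m := by
    rcases m with _ | _ | m
    · omega
    · omega
    · omega
  have hcard : I.card = 2 * m := Nat.eq_of_mul_eq_mul_left (pow_pos (by omega : 0 < a) 2)
    ((le_antisymm k2 (h2.trans h1)).trans (by rw [hm]; ring))
  have hti := fun w hw => ti_U₁ hP hc hA hq n3 n2 n5 (le_sup_left.trans n6) hne hdeg (w := w) hw
  have hua : u ≤ a ^ 2 := by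
    obtain ⟨w, hw, hw1⟩ := exists_mem_ne_one hP.W₁_ne
    refine (Nat.le_of_dvd (Nat.pos_of_ne_zero (relIndex_ne_zero _ _))
      (relIndex_dvd_left U (hti w hw hw1))).trans (Subgroup.relIndex_inf_le.trans (le_of_eq ?_))
    nth_rw 4 [← cj_of_mem_norm (hP.U_normal hw)]
    rw [relIndex_cj, ← hA.a_eq, sq]
  obtain ⟨l, hl, hli, hld, -⟩ := h8c hA
  have hSC : 𝒮 (H₀ ⊔ C) ⊆ S := mono (sup_le_sup_left (der_le _) _)
  have hlI : l ∉ I := fun h' => hne (Nat.eq_of_mul_eq_mul_left hq.pos (Nat.cast_injective (R := ℂ)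
    ((hId l h').symm.trans hld)))
  have := hD.normH
  have hsupp : ∀ φ ∈ S, SuppIn φ (insert 1 (Subtype.val ⁻¹' typeA' M ∪ vClass hP.i₁ hP.i₂)) := fun φ hφ => by
    obtain ⟨θ, hθ, -, hk, rfl⟩ := mem_sInd.1 hφ
    exact (hD.suppIn_ind hθ hk).mono (Set.insert_subset_insert Set.subset_union_left)
  set γ := indFun ((H ⊔ cKer U H₁ H₀).subgroupOf M) 1 with hγ
  have hγo : ∀ φ ∈ S, ⟪γ, φ⟫ = 0 := fun φ hφ => ip_ind_one_sInd (Subgroup.subgroupOf_mono M le_sup_left) hφ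
  have hαv : IsVC (γ - ψ₁) := (H06.isCharacter_indFun _ isIrrCharacter_one.isCharacter).isGeneralizedCharacter.sub
    (hIi _ hψ₁).isGeneralizedCharacter
  have hαs := (((gam_supp hP hc hA hD.mem_A).mono (Set.insert_subset_insert Set.subset_union_left)).sub
    (hsupp _ (hIS hψ₁))).of_insert (by
      rw [Pi.sub_apply, hId _ hψ₁, H06.indFun_one, Pi.one_apply, mul_one, sub_eq_zero, ← hP.index_der, hA.a_eq,
        ← relIndex_HV hP (show cKer U H₁ H₀ ≤ U from fun _ h => h.1), ← Subgroup.relIndex_subgroupOf (der_le M), mul_comm,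
        Subgroup.relIndex_mul_index]
      exact Subgroup.subgroupOf_mono M (sup_le (sd hP).le_left fun _ h => (sd hP).le_right h.1))
  have hXτ : ∀ δ ∈ zspan (S : Set (M → ℂ)), δ 1 = 0 → ⟪ftDade M (γ - ψ₁), ftDade M δ⟫ = -⟪ψ₁, δ⟫ := by
    intro δ hδ h0
    rw [hD.dade.iso _ _ hαv.isClassFunction hαs (zspan_vc (fun χ hχ => (sInd_isCh hχ).isGeneralizedCharacter)
      hδ).isClassFunction ((zspan_suppIn hsupp hδ).of_insert h0), ip_sub_left,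
      ip_eq_zero_symm (zspan_ip_eq_zero (fun χ hχ => ip_eq_zero_symm (hγo χ hχ)) hδ), zero_sub]
  have hld' : ∀ χ ∈ S \ I, χ 1 = l 1 := fun χ hχ =>
    (key χ (Finset.mem_sdiff.1 hχ).1 (Finset.mem_sdiff.1 hχ).2).2.1.trans hld.symm
  refine s5 l (hSC hl) hlI (final h hIS hIc hIi hν hψ₁ (fun χ hχ => (hId χ hχ).trans (hId _ hψ₁).symm) hm1 hcard
    (hSC hl) hlI hli (by rw [hld, hId _ hψ₁, hm]; push_cast; ring) (hD.dade.vc _ hαv hαs) hXτ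
    (orth_R h (S₃ := S \ I) (Finset.coe_subset.2 Finset.sdiff_subset) (fun χ hχ => ?_)
      (Finset.mem_sdiff.2 ⟨hSC hl, hlI⟩) hli hld' (hD.dade.vc _ hαv hαs) (fun χ hχ => ?_) ?_))
  · obtain ⟨c1, c2⟩ := Finset.mem_sdiff.1 hχ
    exact Finset.mem_sdiff.2 ⟨sInd_conj c1, fun c3 => c2 (by simpa using hIc _ c3)⟩
  · obtain ⟨c1, c2⟩ := Finset.mem_sdiff.1 hχ
    rw [hXτ _ (zspan_sub (mem_zspan c1) (mem_zspan (hSC hl))) (by simp [hld' χ hχ]), ip_sub_right,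
      h.orth _ (hIS hψ₁) _ c1 fun e => c2 (e ▸ hψ₁), h.orth _ (hIS hψ₁) _ (hSC hl) fun e => hlI (e ▸ hψ₁)]
    simp
  have e1 : nsq (ftDade M (γ - ψ₁)) = nsq γ + 1 := by
    rw [nsq, hD.dade.iso _ _ hαv.isClassFunction hαs hαv.isClassFunction hαs, ← nsq,
      nsq_sub_of_orth (hγo _ (hIS hψ₁)), irr_nsq (hIi _ hψ₁)]
  have e2 := Finset.sum_le_sum_of_subset_of_nonneg hSC fun φ hφ _ => (fpos φ hφ).le
  rw [sum_sq hP hc n1, ← Finset.sum_sdiff hIS, fI, Finset.sum_congr rfl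
    (g := fun φ => ((q : ℕ) * u : ℝ) ^ 2 * (1 / nsq φ)) fun φ hφ => by
      rw [hld' φ hφ, hld, Complex.natCast_re, Nat.cast_mul, mul_one_div], ← Finset.mul_sum, hp'] at e2
  have e3 := nsq_gam hP hc hA n5 hti
  have e4 : ((1 + 2 * q * a + q * a ^ 3 + q ^ 2 * a ^ 2 : ℕ) : ℝ) < ((2 * a + 1) ^ q : ℕ) :=
    Nat.cast_lt.2 (pow_bound ha.le hq3)
  have e5 : (a ^ 2 * I.card : ℝ) ≤ 2 * a * u := by exact_mod_cast k2
  have e6 : ((u : ℕ) : ℝ) ≤ a ^ 2 := by exact_mod_cast hua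
  have hu0 : (0 : ℝ) < (u : ℕ) := by exact_mod_cast hu
  have hq0 : (0 : ℝ) < (q : ℕ) := by exact_mod_cast hq.pos
  rw [e1]
  push_cast at e2 e4
  refine lt_of_mul_lt_mul_left (a := ((q : ℕ) * u : ℝ) ^ 2) ?_ (sq_nonneg _)
  have e7 := mul_le_mul_of_nonneg_left e5 (sq_nonneg ((q : ℕ) : ℝ))
  have e8 := mul_lt_mul_of_pos_left e4 (mul_pos hq0 hu0)
  have e9 := mul_le_mul_of_nonneg_left e3 (mul_pos (pow_pos hq0 2) hu0).le
  have e10 := mul_le_mul_of_nonneg_left e6 (mul_pos (mul_pos (pow_pos hq0 2) hu0)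
    (show (0 : ℝ) < a + 1 by positivity)).le
  nlinarith

end H25
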