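import Cfsg.Agent.H26.Qa1

/-! Part D of the S1315 cluster (helper25): the diagonal 2-component. -/

set_option autoImplicit false
set_option linter.unusedSectionVars false

open BG Cfsg H22 Subgroup
open scoped commutatorElement

namespace H25.QaD
open Cfsg.Agent.H26.Qa

universe u
variable {G : Type u} [Group G] [Finite G] {n m : ℕ} {J K L D P X : Subgroup G} {z t a k : G}

theorem inv_pg (h : t * t = 1) : IsPGroup 2 (zpowers t) := (elemAb_zpowers (p := 2) (by rw [pow_two, h])).pg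

theorem dg (hL : IsComponent L) (t2 : t * t = 1) (mv : t ∉ N_(L)) :
    ∃ D, PC 2 D C_(zpowers t) ∧ ∀ x ∈ L, x * (t * x * t⁻¹) ∈ D := by
  have c : ∀ x ∈ L, ∀ y ∈ L, x * (t * y * t⁻¹) = t * y * t⁻¹ * x := fun x hx y hy =>
    le_cent_iff.1 (comm_eq_bot.1 (comp_comm_of_ne hL (comp_conj hL t) (mvne mv))) x hx _ (conj_mem_cj t hy)
  let π : L →* G := MonoidHom.mk' (fun x => x * (t * x * t⁻¹)) fun x y => by
    simp only [coe_mul]
    calc (x : G) * y * (t * (x * y) * t⁻¹) = x * (y * (t * x * t⁻¹)) * (t * y * t⁻¹) := by group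
      _ = _ := by rw [c y y.2 x x.2]; group
  have hπ : ∀ x : L, π x = x * (t * x * t⁻¹) := fun _ => rfl
  have ti : t⁻¹ = t := inv_eq_of_mul_eq_one_right t2
  have nt : Nontrivial π.range := (nontrivial_iff_ne_bot _).2 fun e => mv (mem_norm_of_cj_le fun y hy => by
    obtain ⟨x, hx, rfl⟩ := mem_cj'.1 hy
    have := mem_bot.1 (e.le ⟨⟨x, hx⟩, rfl⟩)
    rw [hπ] at this
    rw [eq_inv_of_mul_eq_one_right this]; exact L.inv_mem hx)
  have nl := layer_normal (G := G)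
  have h1 : π.range ≤ layer G ⊓ C_(zpowers t) := by
    rintro _ ⟨x, rfl⟩
    rw [hπ, cent_zpowers]
    refine ⟨mul_mem (le_layer hL x.2) (nl.conj_mem _ (le_layer hL x.2) t), mem_cent1.2 ?_⟩
    calc (x : G) * (t * x * t⁻¹) * t = t * t * x * t * x := by rw [t2]; group
      _ = t * (t * x * t⁻¹ * x) := by rw [ti]; group
      _ = _ := by rw [c x x.2 x x.2]
  have h2 : layer G ⊓ C_(zpowers t) ≤ N_(π.range) := le_norm_iff.2 (by
    rintro y ⟨y1, y2⟩ _ ⟨x, rfl⟩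
    refine ⟨⟨_, conj_mem_of_norm (layer_le_normalizer hL y1) x.2⟩, ?_⟩
    have e : t * y = y * t := mem_cent.1 y2 t (mem_zpowers t)
    simp only [hπ]
    calc y * x * y⁻¹ * (t * (y * x * y⁻¹) * t⁻¹) = y * x * y⁻¹ * ((t * y) * x * (t * y)⁻¹) := by group
      _ = _ := by rw [e]; group)
  exact ⟨π.range, (show PC 2 _ _ from pc_two_of_comp h1 (comp_of_norm (qs_of_surjective hL.2 π.rangeRestrict π.rangeRestrict_surjective)
    h1 h2)).of_norm inf_le_right (le_norm_inf' le_normalizer_of_normal), fun x hx => ⟨⟨x, hx⟩, rfl⟩⟩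

theorem cop : (Nat.card (QuotientGroup.mk' (pPrimeCore 2 G)).ker).Coprime 2 := by
  rw [QuotientGroup.ker_mk']; exact H02.pPrimeCore_coprime _ _

theorem dc (hJ : IsPComponent 2 J) (t2 : t * t = 1) (mv : t ∉ N_(J)) :
    ∃ D, PC 2 D C_(zpowers t) ∧ ∀ x ∈ J, x * (t * x * t⁻¹) ∈ C_(zpowers t) → x * (t * x * t⁻¹) * (x * (t * x * t⁻¹)) = 1 →
      x * (t * x * t⁻¹) ∈ D := by
  let f := QuotientGroup.mk' (pPrimeCore 2 G)
  obtain ⟨E, e1, e2⟩ := dg (t := f t) hJ.2.1 (by rw [← map_mul, t2, map_one]) fun e => mv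
    (le_normalizer_pcomp_of_map hJ (H := zpowers t) (by rw [MonoidHom.map_zpowers]; exact zpowers_le.2 e) (mem_zpowers t))
  rw [← MonoidHom.map_zpowers, ← centralizer_map_of_coprime_ker (QuotientGroup.mk'_surjective _) cop (inv_pg t2)] at e1
  generalize C_(zpowers t) = C at e1
  have := (pcomp_of_map_coprime_ker (f.subgroupMap_surjective C) (by
    rw [ker_subgroupMap]
    exact cop.coprime_dvd_left (card_comap_dvd_of_injective _ _ C.subtype_injective)) e1.2).1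
  refine ⟨_, ⟨map_subtype_le _, by rw [subgroupOf, comap_map_eq_self_of_injective C.subtype_injective]; exact this⟩,
    fun x hx h1 h2 => ⟨⟨_, h1⟩, mem_pGen (k := 1) ?_ (Subtype.ext (by simpa [pow_two] using h2)), rfl⟩⟩
  have := e2 _ (mem_map_of_mem f hx)
  rw [← map_inv, ← map_mul, ← map_mul, ← map_mul] at this
  exact this

theorem alt (hK : IsPComponent 2 K) (hP : IsPGroup 2 P) (hn : P ≤ N_(K)) (hD : PC 2 D C_(P)) : D ≤ K ∨ ⁅K, D⁆ ≤ pPrimeCore 2 G := by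
  let f := QuotientGroup.mk' (pPrimeCore 2 G)
  have lay : D ≤ pLayer 2 G := hD.le_pLay.trans (lbal_two' hP)
  by_cases e : ⁅K.map f, D.map f⁆ = ⊥
  · exact .inr (comm_le_iff_map_mk'.2 e)
  have h1 := hD.map f fun e' => e (by rw [e', commutator_bot_right])
  rw [centralizer_map_of_coprime_ker (QuotientGroup.mk'_surjective _) cop hP] at h1
  have h2 := h1.le_orb ((map_mono lay).trans map_pLayer.le) hK.2.1 e
  rw [orb_eq (map_le_normalizer_map f hn), map_mk'_le_iff] at h2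
  exact .inl (hD.pGen_eq.ge.trans (pGen_le_of_subnormal (H02.pPrimeCore_coprime _ _) hK.1 h2))

theorem diag (hJ : Om n J z) (hK : Om m K t) (zt : z * t = t * z) (mv : t ∉ N_(J)) (zN : z ∈ N_(K)) (hX : IsPGroup 2 X)
    (a1 : a ∈ X) (a2 : a ∈ J) (a3 : a * a = z) (tX : t ∈ X) (k1 : k ∈ K) : ⁅a * (t * a * t⁻¹), k⁆ ∈ OC t := by
  have tz : t ∈ C_[z] := mem_cent1.2 zt.symm
  have zc : z ∈ C_[t] := mem_cent1.2 zt
  have ti : t⁻¹ = t := inv_eq_of_mul_eq_one_right hK.sq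
  have c : a * (t * a * t⁻¹) = t * a * t⁻¹ * a :=
    hJ.comm (hJ.cj' tz) (mvne mv) hX a1 a2 (mul_mem (mul_mem tX a1) (inv_mem tX)) (conj_mem_cj t a2)
  have d2 : a * (t * a * t⁻¹) * (a * (t * a * t⁻¹)) = 1 := by
    calc _ = a * (t * a * t⁻¹ * a) * (t * a * t⁻¹) := by group
      _ = (a * a) * (t * (a * a) * t⁻¹) := by rw [← c]; group
      _ = 1 := by rw [a3, ← zt, mul_inv_cancel_right, hJ.sq]
  have dt : a * (t * a * t⁻¹) ∈ C_[t] := mem_cent1.2 (by
    calc a * (t * a * t⁻¹) * t = t * t * a * t * a := by rw [hK.sq]; group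
      _ = t * (t * a * t⁻¹ * a) := by rw [ti]; group
      _ = _ := by rw [c])
  obtain ⟨D, h1, h2⟩ := dc (t := (⟨t, tz⟩ : C_[z])) hJ.pc.2 (Subtype.ext hK.sq) fun e => mv (by
    have := map_le_normalizer_map (C_[z]).subtype (zpowers_le.2 e) (mem_map_of_mem _ (mem_zpowers _))
    rwa [map_subgroupOf_eq_of_le hJ.le] at this)
  have h3 := h2 ⟨a, hJ.le a2⟩ a2 (by rw [cent_zpowers]; exact mem_cent1.2 (Subtype.ext (mem_cent1.1 dt))) (Subtype.ext d2)
  have h4 : D.map (C_[z]).subtype ≤ N_(J) := (map_mono (h1.le_pLay.trans (lbal_two' (inv_pg (Subtype.ext hK.sq))))).trans hJ.lay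
  have h5 := (pc_map_iff (C_[z]).subtype_injective).2 h1
  have e1 : (C_(zpowers (⟨t, tz⟩ : C_[z]))).map (C_[z]).subtype = C_[t] ⊓ C_[z] := by
    ext x
    rw [cent_zpowers]
    exact ⟨fun ⟨y, y1, y2⟩ => y2 ▸ ⟨mem_cent1.2 (congrArg Subtype.val (mem_cent1.1 y1)), y.2⟩,
      fun h => ⟨⟨x, h.2⟩, mem_cent1.2 (Subtype.ext (mem_cent1.1 h.1)), rfl⟩⟩
  have e2 : (C_[t] ⊓ C_[z]).subgroupOf C_[t] = C_(zpowers (⟨z, zc⟩ : C_[t])) := by
    ext x
    rw [cent_zpowers]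
    exact ⟨fun h => mem_cent1.2 (Subtype.ext (mem_cent1.1 h.2)), fun h => ⟨x.2, mem_cent1.2 (congrArg Subtype.val (mem_cent1.1 h))⟩⟩
  rw [e1] at h5
  have h6 : a * (t * a * t⁻¹) ∈ D.map (C_[z]).subtype := mem_map_of_mem _ h3
  generalize D.map (C_[z]).subtype = E at h4 h5 h6
  generalize a * (t * a * t⁻¹) = d at *
  have h7 := (pc_subgroupOf (h5.1.trans inf_le_left) inf_le_left).2 h5
  rw [e2] at h7
  rcases alt hK.pc.2 (inv_pg (Subtype.ext hJ.sq)) (zpowers_le.2 (subgroupOf_le_normalizer (zpowers_le.2 zN) (mem_zpowers z))) h7 with e | e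
  · rcases hK.uq d (e (x := ⟨d, dt⟩) h6) d2 with rfl | rfl
    · rw [commutatorElement_one_left]; exact one_mem _
    · exact absurd (h4 h6) mv
  · rw [comm_comm] at e
    have := mem_map_of_mem (C_[t]).subtype (e (commutator_mem_commutator (g₁ := ⟨d, dt⟩) (g₂ := ⟨k, hK.le k1⟩) h6 k1))
    rwa [show (pPrimeCore 2 C_[t]).map (C_[t]).subtype = _ from p'coreOf_eq Nat.prime_two _] at this

end H25.QaD
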