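import Cfsg.Agent.L.Js0

/-! S5573, part C. -/

set_option autoImplicit false

namespace H25.S7C
open _root_.Cfsg Subgroup MulAction BG
universe u

theorem pg {Γ : Type*} [Group Γ] {p : ℕ} [Fact p.Prime] {g : Γ} (hg : orderOf g = p) : IsPGroup p (zpowers g) :=
  IsPGroup.of_card (n := 1) (by rw [Nat.card_zpowers, hg, pow_one])

theorem cj7 {H : Type*} [Group H] [Finite H] (n : ¬ 49 ∣ Nat.card H) (a b : H) (ha : orderOf a = 7) (hb : orderOf b = 7) :
    ∃ c : H, c * a * c⁻¹ ∈ zpowers b := by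
  have : Fact (Nat.Prime 7) := ⟨by norm_num⟩
  obtain ⟨P, l⟩ := (pg hb).exists_le_sylow
  obtain ⟨P', l'⟩ := (pg ha).exists_le_sylow
  obtain ⟨c, e⟩ := exists_smul_eq H P' P
  obtain ⟨k, hk⟩ := IsPGroup.iff_card.1 P.2
  have d := (P : Subgroup H).card_subgroup_dvd_card
  have k1 : k ≤ 1 := by
    by_contra! r
    exact n (((pow_dvd_pow 7 r).trans (dvd_of_eq hk.symm)).trans d)
  have eq : zpowers b = P := eq_of_le_of_card_ge l (by
    rw [Nat.card_zpowers, hb, show Nat.card (P : Subgroup H) = 7 ^ k from hk]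
    interval_cases k <;> norm_num)
  refine ⟨c, ?_⟩
  rw [eq, ← e, Sylow.coe_subgroup_smul]
  exact smul_mem_pointwise_smul _ (MulAut.conj c) _ (l' (mem_zpowers a))

theorem c : _root_.L.Js.CStmt.{u} := by
  intro G _ _ z δ σ t V K ⟨x0, y0, ox, oy, xy⟩ ha pu hV cV KN ⟨e⟩ tV t1 zt c276 oδ δz c3 σz oσ
  have : Fact (Nat.Prime 7) := ⟨by norm_num⟩
  have : Fact (Nat.Prime 2) := ⟨by norm_num⟩
  obtain ⟨x, y, yN, ox, oy, xy⟩ : ∃ x y : G, y ∈ N_(V) ∧ orderOf x = 3 ∧ orderOf y = 7 ∧ x * y = y * x :=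
    ⟨e.symm x0, e.symm y0, KN (e.symm y0).2, by rw [orderOf_coe, MulEquiv.orderOf_eq, ox], by rw [orderOf_coe, MulEquiv.orderOf_eq, oy],
      by rw [← coe_mul, ← coe_mul, ← map_mul, ← map_mul, xy]⟩
  have oc : ∀ g a : G, orderOf (g * a * g⁻¹) = orderOf a := fun g a => (MulAut.conj g).orderOf_eq a
  obtain ⟨g, hg⟩ := isConj_iff.1 (c3 x δ ox oδ)
  have m1 : g * y * g⁻¹ ∈ C_[z] := δz (mem_centralizer_singleton_iff.2 (by
    rw [← hg, conj_mul, conj_mul, xy]))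
  obtain ⟨c, i, hi⟩ := cj7 ha.1 ⟨σ, σz⟩ ⟨_, m1⟩ (by rw [orderOf_mk, oσ]) (by rw [orderOf_mk, oc, oy])
  have hi : (g * y * g⁻¹) ^ i = c.1 * σ * c.1⁻¹ := congrArg Subtype.val hi
  have hσ : σ = (c.1⁻¹ * g) * y ^ i * (c.1⁻¹ * g)⁻¹ := by
    rw [conj_zpow] at hi
    calc σ = c.1⁻¹ * (c.1 * σ * c.1⁻¹) * c.1 := by group
      _ = _ := by rw [← hi]; group
  generalize c.1⁻¹ * g = h at hσ
  have cm : ∀ a ∈ V, ∀ b ∈ V, a * b = b * a := fun a ha b hb => congrArg Subtype.val (hV.1.is_comm.comm (⟨a, ha⟩ : V) ⟨b, hb⟩)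
  let _ : MulAction (zpowers y) G := MulAction.compHom _ ((MulAut.conj (G := G)).comp (zpowers y).subtype)
  let S : SubMulAction (zpowers y) G := ⟨{v : G | ∃ n ∈ N_(V), n * t * n⁻¹ = v}, by
    rintro k _ ⟨n, hn, rfl⟩
    exact ⟨k.1 * n, mul_mem (zpowers_le.2 yN k.2) hn, by
      show _ = k.1 * (n * t * n⁻¹) * k.1⁻¹
      group⟩⟩
  have c2 := (pg oy).card_modEq_card_fixedPoints S
  rw [show Nat.card S = 276 from c276] at c2
  let F : Set G := (fun s : S => s.1) '' fixedPoints (zpowers y) S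
  have cF : 3 ≤ F.ncard := by
    rw [Set.ncard_image_of_injective _ Subtype.val_injective, ← Nat.card_coe_set_eq]
    unfold Nat.ModEq at c2
    omega
  have mF : ∀ v ∈ F, v ∈ V ⊓ C_[y] ∧ v ≠ 1 ∧ ¬ IsConj z v := by
    rintro _ ⟨⟨_, n, hn, rfl⟩, hs, rfl⟩
    have k : y * (n * t * n⁻¹) * y⁻¹ = n * t * n⁻¹ := congrArg Subtype.val (hs ⟨y, mem_zpowers y⟩)
    exact ⟨⟨(hn t).1 tV, mem_centralizer_singleton_iff.2 (mul_inv_eq_iff_eq_mul.1 k).symm⟩, fun r => t1 (conj_eq_one_iff.1 r),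
      fun r => zt (r.trans (isConj_iff.2 ⟨n, rfl⟩).symm)⟩
  have n1 : (1 : G) ∉ F := fun r => (mF _ r).2.1 rfl
  have s1 : insert 1 F ⊆ ((V ⊓ C_[y] : Subgroup G) : Set G) := Set.insert_subset (one_mem _) fun v hv => (mF v hv).1
  have pure : ∀ w ∈ V ⊓ C_[y], w ≠ 1 → ¬ IsConj z w := fun w hw w1 r => by
    have l := Set.ncard_le_ncard (Set.insert_subset hw s1)
    rw [Set.ncard_insert_of_notMem (by
      rintro (q | q)
      exacts [w1 q, (mF w q).2.2 r]), Set.ncard_insert_of_notMem n1] at l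
    obtain ⟨k, hk⟩ := isConj_iff.1 r.symm
    have m : k * y * k⁻¹ ∈ C_[z] := mem_centralizer_singleton_iff.2 (by
      rw [← hk, conj_mul, conj_mul, mem_centralizer_singleton_iff.1 hw.2])
    have d := (ha.2 _ m (by rw [oc, oy])).1
    have le : (V ⊓ C_[y]).map (MulAut.conj k).toMonoidHom ≤ C_[z] ⊓ C_[k * y * k⁻¹] := by
      rintro _ ⟨v, hv, rfl⟩
      refine ⟨mem_centralizer_singleton_iff.2 ?_, mem_centralizer_singleton_iff.2 ?_⟩
      · show k * v * k⁻¹ * z = z * (k * v * k⁻¹)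
        rw [← hk, conj_mul, conj_mul, cm v hv.1 w hw.1]
      · show k * v * k⁻¹ * _ = _ * (k * v * k⁻¹)
        rw [conj_mul, conj_mul, mem_centralizer_singleton_iff.1 hv.2]
    have d1 := (card_dvd_of_le le).trans d
    rw [card_map_of_injective (MulAut.conj k).injective] at d1
    have d2 := card_dvd_of_le (inf_le_left : V ⊓ C_[y] ≤ V)
    rw [cV] at d2
    have := Nat.le_of_dvd (by norm_num) (Nat.dvd_gcd d1 d2)
    have q : ((V ⊓ C_[y] : Subgroup G) : Set G).ncard = Nat.card ↥(V ⊓ C_[y]) := rfl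
    rw [show Nat.gcd 84 (2 ^ 11) = 4 by norm_num] at this
    omega
  have l := Set.ncard_le_ncard s1
  rw [Set.ncard_insert_of_notMem n1] at l
  have l' := pu V hV cV _ inf_le_left pure
  have q : ((V ⊓ C_[y] : Subgroup G) : Set G).ncard = Nat.card ↥(V ⊓ C_[y]) := rfl
  refine ⟨(V ⊓ C_[y]).map (MulAut.conj h).toMonoidHom, ?_, by rw [card_map_of_injective (MulAut.conj h).injective]; omega, ?_⟩
  · rintro _ ⟨v, hv, rfl⟩
    refine mem_centralizer_singleton_iff.2 ?_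
    show h * v * h⁻¹ * σ = σ * (h * v * h⁻¹)
    rw [hσ, conj_mul, conj_mul, (Commute.zpow_right (mem_centralizer_singleton_iff.1 hv.2) i).eq]
  · rintro _ ⟨v, hv, rfl⟩ n
    have v1 : v ≠ 1 := fun r => n (by rw [r, map_one])
    exact ⟨(oc h v).trans (orderOf_eq_prime (hV.2 v hv.1) v1), fun r => pure v hv v1 (r.trans (isConj_iff.2 ⟨h, rfl⟩).symm)⟩

end H25.S7C
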