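import Cfsg.Agent.H25.WM
import Cfsg.Agent.H25.KH
import Cfsg.Agent.H19.TM1
import Cfsg.Agent.H10.TM

/-!
Part M3 of the 3-local cluster: the normalizer of a Sylow 3-subgroup of `M₂₂`.
-/

set_option autoImplicit false

namespace H25.TM3
open _root_.Cfsg Finset Equiv H25.JC BG
open scoped Pointwise

theorem c384 (y : Spor.M22) (y2 : y * y = 1) (y1 : y ≠ 1) : Nat.card (Subgroup.centralizer ({y} : Set Spor.M22)) = 384 := by
  have o2 : orderOf y.1 = 2 := orderOf_eq_prime (by rw [pow_two]; exact congrArg Subtype.val y2) fun e => y1 (Subtype.ext e)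
  have hF := (Cfsg.Agent.S5394.result.1 y.1 y.2.1.1 o2).resolve_right fun e => e none y.2.1.2
  obtain ⟨K, Y, α, _, _, φ, eK, mY, ca, su, ke, YK, cY, Y2, cen, iK⟩ :=
    H25.WM.con hF (mem_filter.2 ⟨mem_univ _, y.2.1.2⟩) (mem_filter.2 ⟨mem_univ _, y.2.2⟩)
  have hx := _root_.H07.JH.hx ca φ su ke YK cY Y2 cen
  have yY : y ∈ Y := (mY y).2 fun x hx => (mem_filter.1 hx).2
  have le : Subgroup.centralizer ({y} : Set Spor.M22) ≤ K := fun g hg => eK ▸ eq_of_subset_of_card_le (fun x hx => by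
    obtain ⟨p, hp, rfl⟩ := mem_smul_finset.1 hx
    have e : g.1 * y.1 = y.1 * g.1 := congrArg Subtype.val (Subgroup.mem_centralizer_singleton_iff.1 hg)
    refine mem_filter.2 ⟨mem_univ _, ?_⟩
    show y.1 (g.1 p) = g.1 p
    rw [← Perm.mul_apply, ← e, Perm.mul_apply, (mem_filter.1 hp).2]) (card_smul_finset _ _).ge
  let _ : MulAction K Spor.M22 := MulAction.compHom _ ((MulAut.conj (G := Spor.M22)).comp K.subtype)
  have es : MulAction.stabilizer K y = (Subgroup.centralizer ({y} : Set Spor.M22)).subgroupOf K := Subgroup.ext fun k =>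
    mul_inv_eq_iff_eq_mul.trans (Subgroup.mem_centralizer_singleton_iff (g := y) (k := k.1)).symm
  have c := (MulAction.stabilizer K y).index_mul_card
  have l : ((Y : Set Spor.M22) \ {1}) = MulAction.orbit K y := Set.ext fun x => ⟨fun hx' => by
    obtain ⟨k, a, b⟩ := hx.tr y yY x hx'.1 y1 hx'.2
    exact ⟨⟨k, a⟩, b⟩, by
    rintro ⟨k, rfl⟩
    exact ⟨hx.nY k.1 k.2 y yY, fun e => y1 (conj_eq_one_iff.1 e)⟩⟩
  have l := congrArg Set.ncard l
  rw [Set.ncard_diff_singleton_of_mem (one_mem Y), show (Y : Set Spor.M22).ncard = 16 from cY] at l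
  have d := K.index_mul_card
  rw [MulAction.index_stabilizer, es, Nat.card_congr (Subgroup.subgroupOfEquivOfLe le).toEquiv] at c
  rw [iK, H14.card_M22, ← c, ← l] at d
  omega

theorem e3 (g : Spor.M22) (h9 : g ^ 9 = 1) : g ^ 3 = 1 := by
  obtain ⟨O, K, Y, α, _, _, φ, -, -, -, -, -, ca, -, ke, -, -, Y2, -, iK⟩ := H25.KH.con
  have : Fact (Nat.Prime 3) := ⟨Nat.prime_three⟩
  have pg : IsPGroup 3 (Subgroup.zpowers g) := fun x => ⟨2, by
    obtain ⟨_, n, rfl⟩ := x
    exact Subtype.ext (show (g ^ n) ^ 9 = 1 by rw [← zpow_natCast, ← zpow_mul, mul_comm, zpow_mul, zpow_natCast, h9, one_zpow])⟩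
  obtain ⟨q, hq⟩ := pg.nonempty_fixed_point_of_prime_not_dvd_card (Spor.M22 ⧸ K) (by rw [← Subgroup.index_eq_card, iK]; norm_num)
  obtain ⟨h, rfl⟩ := QuotientGroup.mk_surjective q
  have m : (g * h)⁻¹ * h ∈ K := QuotientGroup.eq.1 (hq ⟨g, Subgroup.mem_zpowers g⟩)
  have m : h⁻¹ * g * h⁻¹⁻¹ ∈ K := by simpa [mul_assoc] using inv_mem m
  let k : K := ⟨_, m⟩
  have k9 : k ^ 9 = 1 := Subtype.ext (show (h⁻¹ * g * h⁻¹⁻¹) ^ 9 = 1 by rw [conj_pow, h9]; simp)
  have s9 : (φ k).1 ^ 9 = 1 := by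
    have := congrArg (fun x => (φ x).1) k9
    simpa using this
  have s3 : φ (k ^ 3) = 1 := by
    rw [map_pow]
    refine Subtype.ext (Equiv.ext fun x => ?_)
    have p : Function.IsPeriodicPt (φ k).1 9 x := by
      rw [Function.IsPeriodicPt, Function.IsFixedPt, ← Perm.coe_pow, s9]; rfl
    have a := p.minimalPeriod_dvd
    have b := Function.minimalPeriod_le_card (f := (φ k).1) (x := x)
    have c : Function.minimalPeriod (φ k).1 x ∣ 3 := by
      rw [ca] at b
      generalize Function.minimalPeriod (φ k).1 x = n at a b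
      interval_cases n <;> omega
    have := Function.isPeriodicPt_iff_minimalPeriod_dvd.2 c
    rw [Function.IsPeriodicPt, Function.IsFixedPt, ← Perm.coe_pow] at this
    exact this
  have y := Y2 _ ((ke _).1 s3)
  have k3 : k ^ 3 = 1 := by
    have y : k ^ 3 * k ^ 3 = 1 := Subtype.ext y
    rw [← k9, show k ^ 9 = k ^ 3 * k ^ 3 * k ^ 3 by group, y, one_mul]
  have : (h⁻¹ * g * h⁻¹⁻¹) ^ 3 = 1 := congrArg Subtype.val k3
  rw [conj_pow] at this
  exact conj_eq_one_iff.1 this

theorem gen {G : Type} [Group G] [Finite G] (cG : Nat.card G = 443520) (e3 : ∀ g : G, g ^ 9 = 1 → g ^ 3 = 1)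
    (c384 : ∀ y : G, y * y = 1 → y ≠ 1 → Nat.card (Subgroup.centralizer ({y} : Set G)) = 384)
    (m1 : ∀ x : G, orderOf x = 3 → ∀ R ≤ Subgroup.centralizer ({x} : Set G), Odd (Nat.card R) → Nat.card R ∣ 9)
    (m2 : ∀ x y : G, orderOf x = 3 → orderOf y = 3 → IsConj x y) (S : Sylow 3 G) :
    Nat.card ↥(Subgroup.normalizer ((S : Subgroup G) : Set G)) = 72 := by
  classical
  have : Fact (Nat.Prime 3) := ⟨Nat.prime_three⟩
  have cS : Nat.card (S : Subgroup G) = 9 := by
    rw [S.card_eq_multiplicity, cG, show 443520 = 3 ^ 2 * 49280 by norm_num, Nat.factorization_mul (by norm_num) (by norm_num),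
      Nat.prime_three.factorization_pow]
    simp [Nat.factorization_eq_zero_of_not_dvd (show ¬ 3 ∣ 49280 by norm_num)]
  have cm : ∀ a ∈ (S : Subgroup G), ∀ b ∈ (S : Subgroup G), a * b = b * a := fun a ha b hb =>
    congrArg Subtype.val ((IsPGroup.isMulCommutative_of_card_eq_prime_sq (p := 3) (G := (S : Subgroup G)) cS).is_comm.comm ⟨a, ha⟩ ⟨b, hb⟩)
  have o3 : ∀ a ∈ (S : Subgroup G), a ≠ 1 → orderOf a = 3 := fun a ha a1 =>
    orderOf_eq_prime (e3 a (cS ▸ congrArg Subtype.val (pow_card_eq_one' (x := (⟨a, ha⟩ : (S : Subgroup G)))))) a1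
  obtain ⟨x0, hx0⟩ := exists_prime_orderOf_dvd_card' (G := (S : Subgroup G)) 3 (by rw [cS]; norm_num)
  obtain ⟨x, xS⟩ := x0
  have ox : orderOf x = 3 := by rw [← hx0, Subgroup.orderOf_mk]
  have x1 : x ≠ 1 := fun e => by rw [e, orderOf_one] at ox; omega
  have SC : (S : Subgroup G) ≤ Subgroup.centralizer (S : Set G) := fun a ha b hb => cm b hb a ha
  have CS : Subgroup.centralizer (S : Set G) = S := S.is_maximal' (fun g => ⟨2, by
    rcases Nat.even_or_odd (orderOf g.1) with ⟨n, e⟩ | o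
    · exfalso
      have p := orderOf_pos g.1
      have c := c384 (g.1 ^ n) (by rw [← pow_add, ← e, pow_orderOf_eq_one]) (pow_ne_one_of_lt_orderOf (by omega) (by omega))
      have l : (S : Subgroup G) ≤ Subgroup.centralizer ({g.1 ^ n} : Set G) := fun a ha =>
        Subgroup.mem_centralizer_singleton_iff.2 (pow_mem g.2 n a ha)
      have := Subgroup.card_dvd_of_le l
      rw [c, cS] at this
      omega
    · have := m1 x ox (Subgroup.zpowers g.1) (Subgroup.zpowers_le.2 (Subgroup.mem_centralizer_singleton_iff.2 (g.2 x xS).symm))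
        (by rwa [Nat.card_zpowers])
      rw [Nat.card_zpowers] at this
      exact Subtype.ext (orderOf_dvd_iff_pow_eq_one.1 this)⟩) SC
  set N := Subgroup.normalizer ((S : Subgroup G) : Set G) with hN
  let _ : MulAction N G := MulAction.compHom _ ((MulAut.conj (G := G)).comp N.subtype)
  have l : ((S : Subgroup G) : Set G) \ {1} = MulAction.orbit N x := Set.ext fun y => ⟨fun hy => by
    obtain ⟨g, hg⟩ := isConj_iff.1 (m2 x y ox (o3 y hy.1 hy.2))
    obtain ⟨n, hn, e⟩ := S.conj_eq_normalizer_conj_of_mem_centralizer x g⁻¹ (SC xS) (by rw [inv_inv, hg]; exact SC hy.1)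
    exact ⟨⟨n⁻¹, inv_mem hn⟩, by
      show n⁻¹ * x * n⁻¹⁻¹ = y
      rw [← hg]; simpa using e.symm⟩, by
    rintro ⟨k, rfl⟩
    exact ⟨(k.2 x).1 xS, fun e => x1 (conj_eq_one_iff.1 e)⟩⟩
  have l := congrArg Set.ncard l
  rw [Set.ncard_diff_singleton_of_mem (one_mem (S : Subgroup G)), show ((S : Subgroup G) : Set G).ncard = 9 from cS] at l
  have c := (MulAction.stabilizer N x).index_mul_card
  rw [MulAction.index_stabilizer, ← l] at c
  set T := MulAction.stabilizer N x with hT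
  have d9 : 9 ∣ Nat.card T := by
    rw [← cS, ← Nat.card_congr (Subgroup.subgroupOfEquivOfLe (Subgroup.le_normalizer (H := (S : Subgroup G)))).toEquiv]
    exact Subgroup.card_dvd_of_le fun a ha => mul_inv_eq_iff_eq_mul.2 (cm _ ha _ xS)
  have zS : Subgroup.zpowers x ≤ S := Subgroup.zpowers_le.2 xS
  have k : ∀ p n : ℕ, p.Prime → p ≠ 3 → p ^ n ∣ Nat.card T → p ^ n ∣ 6 := fun p n hp p3 h => by
    have : Fact p.Prime := ⟨hp⟩
    obtain ⟨P, cP⟩ := Sylow.exists_subgroup_card_pow_prime p h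
    have fx : ∀ t : T, t.1.1 * x * t.1.1⁻¹ = x := fun t => t.2
    let Ω : SubMulAction P G := ⟨((S : Subgroup G) : Set G) \ (Subgroup.zpowers x : Set G), fun t b hb => ⟨(t.1.1.2 b).1 hb.1, fun ⟨i, e⟩ => hb.2 ⟨i, by
      have e : x ^ i = t.1.1.1 * b * t.1.1.1⁻¹ := e
      rw [← fx t.1, conj_zpow] at e
      exact mul_left_cancel (mul_right_cancel e)⟩⟩⟩
    have fr : ∀ b : Ω, MulAction.stabilizer P b = ⊥ := fun b => eq_bot_iff.2 fun t ht => by
      have e : t.1.1.1 * b.1 * t.1.1.1⁻¹ = b.1 := congrArg Subtype.val ht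
      have le : (S : Subgroup G) ⊓ Subgroup.centralizer {t.1.1.1} = S := by
        have d1 := Subgroup.card_dvd_of_le (inf_le_left : (S : Subgroup G) ⊓ Subgroup.centralizer {t.1.1.1} ≤ S)
        have z : Subgroup.zpowers x ≤ (S : Subgroup G) ⊓ Subgroup.centralizer {t.1.1.1} := Subgroup.zpowers_le.2
          ⟨xS, Subgroup.mem_centralizer_singleton_iff.2 (mul_inv_eq_iff_eq_mul.1 (fx t.1)).symm⟩
        have d2 := Subgroup.card_dvd_of_le z
        have n3 : Nat.card ↥((S : Subgroup G) ⊓ Subgroup.centralizer {t.1.1.1}) ≠ 3 := fun c => b.2.2 (by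
          rw [Subgroup.eq_of_le_of_card_ge z (by rw [c, Nat.card_zpowers, ox])]
          exact ⟨b.2.1, Subgroup.mem_centralizer_singleton_iff.2 (mul_inv_eq_iff_eq_mul.1 e).symm⟩)
        rw [Nat.card_zpowers, ox] at d2
        rw [cS] at d1
        refine Subgroup.eq_of_le_of_card_ge inf_le_left ?_
        rw [cS]
        have := Nat.le_of_dvd (by norm_num) d1
        generalize Nat.card ↥((S : Subgroup G) ⊓ Subgroup.centralizer {t.1.1.1}) = u at *
        interval_cases u <;> omega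
      have m : t.1.1.1 ∈ (S : Subgroup G) := CS ▸ fun a ha => Subgroup.mem_centralizer_singleton_iff.1 (le.ge ha).2
      have a := Subgroup.orderOf_dvd_natCard _ m
      have b := orderOf_dvd_natCard t
      rw [cS, Subgroup.orderOf_coe, Subgroup.orderOf_coe, Subgroup.orderOf_coe] at a
      rw [cP] at b
      exact orderOf_eq_one_iff.1 (Nat.eq_one_of_dvd_coprimes (((Nat.coprime_primes hp Nat.prime_three).2 p3).pow n 2) b a)
    have q := Nat.card_congr (MulAction.selfEquivOrbitsQuotientProd fr)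
    have c6 : Nat.card Ω = 6 := by
      show (((S : Subgroup G) : Set G) \ (Subgroup.zpowers x : Set G)).ncard = 6
      rw [Set.ncard_diff zS, show ((S : Subgroup G) : Set G).ncard = 9 from cS,
        show (Subgroup.zpowers x : Set G).ncard = 3 from (Nat.card_zpowers x).trans ox]
    rw [c6, Nat.card_prod, cP] at q
    exact q ▸ dvd_mul_left _ _
  have k4 := k 2 2 (by norm_num) (by norm_num)
  have k5 := k 5 1 (by norm_num) (by norm_num)
  have k7 := k 7 1 (by norm_num) (by norm_num)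
  have k11 := k 11 1 (by norm_num) (by norm_num)
  have n := card_sylow_modEq_one 3 G
  have i := N.index_mul_card
  rw [S.card_eq_index_normalizer] at n
  change N.index ≡ 1 [MOD 3] at n
  rw [cG, ← c] at i
  rw [← c]
  obtain ⟨u, hu⟩ := d9
  rw [hu] at k4 k5 k7 k11 i ⊢
  have d : u ∣ 16 * (5 * 7 * 11) := ⟨N.index, by nlinarith⟩
  have cp : ∀ p : ℕ, p.Prime → ¬ p ∣ u → u.Coprime p := fun p hp h => ((Nat.Prime.coprime_iff_not_dvd hp).2 h).symm
  have d := Nat.Coprime.dvd_of_dvd_mul_right (((cp 5 (by norm_num) (by omega)).mul_right (cp 7 (by norm_num) (by omega))).mul_right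
    (cp 11 (by norm_num) (by omega))) d
  have := Nat.le_of_dvd (by norm_num) d
  unfold Nat.ModEq at n
  interval_cases u <;> omega

theorem m3 : _root_.L.Jt.M3Stmt := fun S =>
  gen H14.card_M22 e3 c384 Cfsg.Agent.H19.TM1.m1 _root_.H10.TM.m2 S

end H25.TM3
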