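import Cfsg.Agent.H05.Tu0

/-!
Part R of S4504: reduction modulo `p` of a faithful complex representation.
-/

set_option autoImplicit false

namespace H25.Tu
open Module

universe u

theorem val (p : ℕ) [hp : Fact p.Prime] : ∃ A : ValuationSubring ℂ, ¬ IsUnit (p : A) := by
  obtain ⟨R, -, hR⟩ := Ideal.image_subset_nonunits_valuationSubring (K := ℂ) (A := ⊥)
    (I := Ideal.span {(p : (⊥ : Subring ℂ))}) (by
      rw [Ne, Ideal.span_singleton_eq_top]
      intro hu
      obtain ⟨b, hb⟩ := hu.exists_right_inv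
      obtain ⟨b, m, rfl⟩ := b
      have : (p : ℂ) * m = 1 := congrArg Subtype.val hb
      have h2 : (p : ℤ) * m = 1 := by exact_mod_cast this
      exact hp.out.ne_one (by exact_mod_cast Int.eq_one_of_mul_eq_one_right (by positivity) h2))
  have hpR : R.valuation p < 1 := (R.mem_nonunits_iff).1 (hR ⟨_, Ideal.mem_span_singleton_self _, rfl⟩)
  exact ⟨R, (IsLocalRing.mem_maximalIdeal _).1 ((R.valuation_lt_one_iff (p : R)).2 hpR)⟩

theorem lat {G : Type u} [Group G] [Finite G] (A : ValuationSubring ℂ) {n : ℕ} (ρ : Representation ℂ G (Fin n → ℂ))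
    (h : Function.Injective ρ) : ∃ μ : G →* Matrix (Fin n) (Fin n) A, Function.Injective μ := by
  let s : Set (Fin n → ℂ) := Set.range fun x : G × Fin n => ρ x.1 (Pi.single x.2 1)
  let L : Submodule A (Fin n → ℂ) := Submodule.span A s
  have fg : L.FG := Submodule.fg_span (Set.finite_range _)
  have tp : Submodule.span ℂ (L : Set (Fin n → ℂ)) = ⊤ := by
    rw [eq_top_iff, ← (Pi.basisFun ℂ (Fin n)).span_eq]
    refine Submodule.span_mono ?_
    rintro _ ⟨i, rfl⟩
    exact Submodule.subset_span ⟨(1, i), by simp⟩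
  have : Submodule.IsLattice ℂ L := ⟨fg, tp⟩
  have : Module.Finite A L := Module.Finite.iff_fg.2 fg
  have : Flat A L := Module.Flat.flat_iff_torsion_eq_bot_of_isBezout.2 (by
    rw [eq_bot_iff]
    rintro x ⟨a, ha⟩
    have : ((a : A) : ℂ) • (x : Fin n → ℂ) = 0 := congrArg Subtype.val ha
    exact Subtype.ext ((smul_eq_zero.1 this).resolve_left fun e => nonZeroDivisors.coe_ne_zero a (Subtype.ext e)))
  have : Free A L := Module.free_of_flat_of_isLocalRing
  let b0 := Free.chooseBasis A L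
  let b := b0.reindex ((b0.extendOfIsLattice ℂ).indexEquiv (Pi.basisFun ℂ (Fin n)))
  have st : ∀ g, ∀ x ∈ L, (ρ g).restrictScalars A x ∈ L := fun g x hx =>
    (Submodule.map_le_iff_le_comap.1 (by
      rw [Submodule.map_span]
      refine Submodule.span_mono ?_
      rintro _ ⟨_, ⟨⟨k, i⟩, rfl⟩, rfl⟩
      exact ⟨(g * k, i), by simp⟩ : L.map ((ρ g).restrictScalars A) ≤ L)) hx
  let r : G →* End A L := ⟨⟨fun g => ((ρ g).restrictScalars A).restrict (st g), LinearMap.ext fun x => Subtype.ext (by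
    show ρ 1 x = x
    rw [map_one]; rfl)⟩, fun a c => LinearMap.ext fun x => Subtype.ext (by
    show ρ (a * c) x = ρ a (ρ c x)
    rw [map_mul]; rfl)⟩
  refine ⟨(LinearMap.toMatrixAlgEquiv b).toMulEquiv.toMonoidHom.comp r, fun a c e0 => h ?_⟩
  have e : r a = r c := (LinearMap.toMatrixAlgEquiv b).injective e0
  exact LinearMap.ext_on tp fun x hx => congrArg Subtype.val (LinearMap.congr_fun e ⟨x, hx⟩)

theorem red (p : ℕ) [hp : Fact p.Prime] (R : Type) [CommRing R] [Algebra.FiniteType ℤ R] (h : ¬ IsUnit (p : R)) :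
    Nonempty (R →+* H05.Tu.K p) := by
  obtain ⟨m, hm, pm⟩ := exists_max_ideal_of_mem_nonunits h
  let _ := Ideal.Quotient.field m
  have : CharP (R ⧸ m) p := (CharP.charP_iff_prime_eq_zero hp.out).2 (by
    rw [← map_natCast (Ideal.Quotient.mk m), Ideal.Quotient.eq_zero_iff_mem]; exact pm)
  let _ := ZMod.algebra (R ⧸ m) p
  have : Algebra.FiniteType (ZMod p) (R ⧸ m) := Algebra.FiniteType.of_restrictScalars_finiteType ℤ _ _
  have : Module.Finite (ZMod p) (R ⧸ m) := finite_of_finite_type_of_isJacobsonRing _ _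
  exact ⟨(IsAlgClosed.lift (R := ZMod p) (S := R ⧸ m) (M := H05.Tu.K p)).toRingHom.comp (Ideal.Quotient.mk m)⟩

theorem r : H05.Tu.RStmt.{u} := by
  intro G _ _ p hp n ρ h
  obtain ⟨A, hA⟩ := val p
  obtain ⟨μ, hμ⟩ := lat A ρ h
  let s : Set A := Set.range fun x : G × Fin n × Fin n => μ x.1 x.2.1 x.2.2
  let R := Algebra.adjoin ℤ s
  have : Algebra.FiniteType ℤ R := (Subalgebra.fg_iff_finiteType _).1 (Subalgebra.fg_def.2 ⟨s, Set.finite_range _, rfl⟩)
  obtain ⟨f⟩ := red p R fun e => hA (by simpa using e.map R.val)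
  have mi : Function.Injective (R.val.toRingHom.mapMatrix : Matrix (Fin n) (Fin n) R →+* _) := Matrix.map_injective Subtype.val_injective
  let ν0 : G → Matrix (Fin n) (Fin n) R := fun g => .of fun i j => ⟨μ g i j, Algebra.subset_adjoin ⟨(g, i, j), rfl⟩⟩
  have e0 : ∀ g, R.val.toRingHom.mapMatrix (ν0 g) = μ g := fun g => rfl
  let ν : G →* Matrix (Fin n) (Fin n) R :=
    ⟨⟨ν0, mi (by rw [e0, map_one, map_one])⟩, fun a b => mi (by rw [map_mul, e0, e0, e0, map_mul])⟩
  let σ : G →* End (H05.Tu.K p) (Fin n → H05.Tu.K p) :=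
    (Matrix.toLinAlgEquiv' (R := H05.Tu.K p) (n := Fin n)).toMulEquiv.toMonoidHom.comp (f.mapMatrix.toMonoidHom.comp ν)
  refine ⟨σ, IsPGroup.of_card (Nat.eq_prime_pow_of_unique_prime_dvd Nat.card_pos.ne' fun {q} hq dv => ?_)⟩
  by_contra ne
  have := Fact.mk hq
  obtain ⟨g, hg⟩ := exists_prime_orderOf_dvd_card' q dv
  have k : f.mapMatrix (ν g) = 1 := (Matrix.toLinAlgEquiv' (R := H05.Tu.K p) (n := Fin n)).injective (by rw [map_one]; exact g.2)
  have gq : g.1 ^ q = 1 := by rw [← hg]; exact congrArg Subtype.val (pow_orderOf_eq_one g)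
  have z : (ν g - 1) * ∑ i ∈ Finset.range q, ν g ^ i = 0 := by rw [mul_geom_sum, ← map_pow, gq, map_one, sub_self]
  have d : (∑ i ∈ Finset.range q, ν g ^ i).det ≠ 0 := fun e => by
    have := congrArg f e
    rw [map_zero, RingHom.map_det, map_sum, Finset.sum_congr rfl fun i _ => by rw [map_pow, k, one_pow], Finset.sum_const, Finset.card_range,
      ← Nat.cast_smul_eq_nsmul (H05.Tu.K p), Matrix.det_smul, Matrix.det_one, mul_one] at this
    exact ne ((Nat.prime_dvd_prime_iff_eq hp.out hq).1 ((CharP.cast_eq_zero_iff (H05.Tu.K p) p q).1 (pow_eq_zero_iff'.1 this).1)).symm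
  have := congrArg (· * (∑ i ∈ Finset.range q, ν g ^ i).adjugate) z
  simp only [mul_assoc, Matrix.mul_adjugate, zero_mul, Matrix.mul_smul, mul_one] at this
  have g1 : g.1 = 1 := hμ (by
    rw [← e0, show ν0 g = 1 from sub_eq_zero.1 ((smul_eq_zero.1 this).resolve_left d), map_one, map_one])
  exact hq.ne_one (by rw [← hg, show g = 1 from Subtype.ext g1, orderOf_one])

end H25.Tu
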