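import Cfsg.Agent.H25.JH
import Cfsg.Agent.H06.W1
import Cfsg.Agent.S5394

/-!
Parts Mu and C384 of S5568: involutions of `M₂₄` and `M₂₂`.
-/

set_option autoImplicit false

namespace H25.WM
open _root_.Cfsg Finset Equiv H25.JC BG
open scoped Pointwise

theorem mu : Cfsg.Agent.H06.W.MuStmt := by
  intro g hg g2 g1
  have e : {i | g i ≠ i} = ((univ.filter fun p => g p = p)ᶜ : Finset GolayPt) := by ext; simp
  rw [e, Set.ncard_coe_finset, card_compl]
  rcases Cfsg.Agent.S5394.result.1 g hg (orderOf_eq_prime (by rwa [pow_two]) g1) with r | r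
  · rw [Cfsg.Agent.S0363.result.1 _ r]; decide
  · rw [filter_eq_empty_iff.2 fun p _ => r p]; decide

theorem con {O : Finset GolayPt} (hO : O ∈ octads) (n0 : none ∈ O) (n1 : some 0 ∈ O) : ∃ (K Y : Subgroup Spor.M22) (α : Type) (_ : Fintype α) (_ : DecidableEq α) (φ : K →* alternatingGroup α),
    K = MulAction.stabilizer Spor.M22 O ∧ (∀ g, g ∈ Y ↔ ∀ x ∈ O, g.1 x = x) ∧ Fintype.card α = 6 ∧ Function.Surjective φ ∧ (∀ k : K, φ k = 1 ↔ (k : Spor.M22) ∈ Y) ∧ Y ≤ K ∧ Nat.card Y = 16 ∧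
    (∀ y ∈ Y, y * y = 1) ∧ (∀ k ∈ K, (∀ y ∈ Y, k * y = y * k) → k ∈ Y) ∧ K.index = 77 := by
  have c8 := Cfsg.Agent.S0363.result.1 O hO
  let Y0 := M24 ⊓ fixingSubgroup (Perm GolayPt) (O : Set GolayPt)
  have mY : ∀ g, g ∈ Y0 ↔ g ∈ M24 ∧ ∀ x ∈ O, g x = x := fun g => and_congr_right fun _ => mem_fixingSubgroup_iff _
  have yl : Y0 ≤ Spor.M22 := fun g hg => ⟨⟨hg.1, ((mY g).1 hg).2 _ n0⟩, ((mY g).1 hg).2 _ n1⟩
  let K : Subgroup Spor.M22 := ⟨⟨⟨{g | ∀ x, g.1 x ∈ O ↔ x ∈ O}, fun a b x => (a _).trans (b x)⟩, fun _ => Iff.rfl⟩,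
    fun {g} a x => by rw [← a]; simp⟩
  have YK : Y0.subgroupOf Spor.M22 ≤ K := fun g hg x => ⟨fun e => g.1.injective (((mY _).1 hg).2 _ e) ▸ e, fun e => (((mY _).1 hg).2 _ e).symm ▸ e⟩
  have pk : ∀ (k : K) (x : O), ((k.1.1.subtypePerm k.2 x).1 ≠ none ∧ (k.1.1.subtypePerm k.2 x).1 ≠ some 0) ↔ (x.1 ≠ none ∧ x.1 ≠ some 0) :=
    fun k x => and_congr (not_congr ⟨fun e => k.1.1.injective (e.trans k.1.2.1.2.symm), fun e => (congrArg k.1.1 e).trans k.1.2.1.2⟩)
      (not_congr ⟨fun e => k.1.1.injective (e.trans k.1.2.2.symm), fun e => (congrArg k.1.1 e).trans k.1.2.2⟩)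
  have fk : ∀ (k : K) (x : O), k.1.1.subtypePerm k.2 x ≠ x → x.1 ≠ none ∧ x.1 ≠ some 0 := fun k x n =>
    ⟨fun e => n (Subtype.ext ((congrArg k.1.1 e).trans (k.1.2.1.2.trans e.symm))),
      fun e => n (Subtype.ext ((congrArg k.1.1 e).trans (k.1.2.2.trans e.symm)))⟩
  let φ0 : K →* Perm {x : O // x.1 ≠ none ∧ x.1 ≠ some 0} := MonoidHom.mk' (fun k => (k.1.1.subtypePerm k.2).subtypePerm (pk k))
    fun _ _ => rfl
  have S := Set.ext_iff.1 (Cfsg.Agent.S1553.result O hO)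
  let φ : K →* alternatingGroup {x : O // x.1 ≠ none ∧ x.1 ≠ some 0} := φ0.codRestrict _ fun k => Perm.mem_alternatingGroup.2
    ((Perm.sign_subtypePerm _ (pk k) (fk k)).trans (Perm.mem_alternatingGroup.1 ((S _).1 ⟨k.1.1, k.1.2.1.1, k.2, rfl⟩)))
  have ca : Fintype.card {x : O // x.1 ≠ none ∧ x.1 ≠ some 0} = 6 := by
    rw [Fintype.card_congr (Equiv.subtypeSubtypeEquivSubtypeInter (· ∈ O) fun x => x ≠ none ∧ x ≠ some 0),
      Fintype.card_of_subtype ((O.erase none).erase (some 0)) fun x => by simp; tauto,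
      card_erase_of_mem (by simp [n1]), card_erase_of_mem n0, c8]
  have su : Function.Surjective φ := fun e => by
    obtain ⟨g, hg, h, r⟩ := (S (Perm.ofSubtype e.1)).2 (Perm.mem_alternatingGroup.2 ((Perm.sign_ofSubtype _).trans e.2))
    have f : ∀ x : O, ¬ (x.1 ≠ none ∧ x.1 ≠ some 0) → g x = x := fun x n =>
      congrArg Subtype.val ((congrArg (· x) r).trans (Perm.ofSubtype_apply_of_not_mem e.1 n))
    refine ⟨⟨⟨g, ⟨hg, f ⟨_, n0⟩ (by simp)⟩, f ⟨_, n1⟩ (by simp)⟩, h⟩, Subtype.ext (Equiv.ext fun x => Subtype.ext ?_)⟩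
    exact (congrArg (· x.1) r).trans (Perm.ofSubtype_apply_coe e.1 x)
  have ke : ∀ k : K, φ k = 1 ↔ (k : Spor.M22) ∈ Y0.subgroupOf Spor.M22 := fun k => ⟨fun e => (mY _).2 ⟨k.1.2.1.1, fun x hx => by
    by_contra n
    exact n (congrArg (fun f : alternatingGroup _ => (f.1 ⟨⟨x, hx⟩, fk k ⟨x, hx⟩ fun e => n (congrArg Subtype.val e)⟩).1.1) e)⟩,
    fun e => Subtype.ext (Equiv.ext fun x => Subtype.ext (Subtype.ext (((mY _).1 e).2 _ x.1.2)))⟩
  have c0 := Cfsg.Agent.S0381.result O hO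
  have cY : Nat.card (Y0.subgroupOf Spor.M22) = 16 := (Nat.card_congr (Subgroup.subgroupOfEquivOfLe yl).toEquiv).trans c0.1
  refine ⟨K, Y0.subgroupOf Spor.M22, _, inferInstance, inferInstance, φ, Subgroup.ext fun g => ⟨fun h =>
    eq_of_subset_of_card_le (fun x hx => by obtain ⟨y, hy, rfl⟩ := mem_smul_finset.1 hx; exact (h y).2 hy) (card_smul_finset _ _).ge,
    fun h x => by
      have h : g.1 • O = O := h
      nth_rw 1 [← h]
      exact smul_mem_smul_finset_iff g.1⟩, fun g => (mY _).trans (and_iff_right g.2.1.1), ca, su, ke, YK, cY, fun y hy => Subtype.ext (c0.2 _ hy),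
    fun k hk c => ?_, ?_⟩
  · have cc : Oᶜ.card = 16 := by rw [card_compl, c8]; rfl
    obtain ⟨p, hp⟩ := card_pos.1 (show 0 < Oᶜ.card by omega)
    let f : Y0 → (Oᶜ : Finset GolayPt) := fun y => ⟨y.1 p, mem_compl.2 fun e => mem_compl.1 hp ((YK (x := ⟨y.1, yl y.2⟩) y.2 p).1 e)⟩
    have fi : Function.Injective f := fun a b e => by
      have m := mul_mem (inv_mem a.2) b.2
      have : a.1⁻¹ * b.1 ∈ (⊥ : Subgroup (Perm GolayPt)) := (Cfsg.Agent.S1554.result O hO p (mem_compl.1 hp)).1 ▸ ⟨m, ⟨m.1, MulAction.mem_stabilizer_iff.2 (by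
        exact (image_congr (g := id) fun x hx => ((mY _).1 m).2 x hx).trans image_id)⟩,
        show a.1⁻¹ (b.1 p) = p from Perm.inv_eq_iff_eq.2 (congrArg Subtype.val e).symm⟩
      exact Subtype.ext (inv_mul_eq_one.1 this)
    have fs := ((Nat.bijective_iff_injective_and_card f).2 ⟨fi, by rw [c0.1, Nat.card_eq_finsetCard, cc]⟩).2
    obtain ⟨y, hy⟩ := fs ⟨k.1 p, mem_compl.2 fun e => mem_compl.1 hp ((hk p).1 e)⟩
    have hy : y.1 p = k.1 p := congrArg Subtype.val hy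
    have cm : ∀ a b : Y0, a.1 * b.1 = b.1 * a.1 := fun a b => by
      rw [← inv_eq_of_mul_eq_one_right (c0.2 _ (mul_mem a.2 b.2)), mul_inv_rev, inv_eq_of_mul_eq_one_right (c0.2 _ a.2),
        inv_eq_of_mul_eq_one_right (c0.2 _ b.2)]
    have m : y.1⁻¹ * k.1 ∈ Y0 := (mY _).2 ⟨mul_mem (inv_mem y.2.1) k.2.1.1, fun a ha => fixall (mul_mem (inv_mem y.2.1) k.2.1.1) hO n0
      (Perm.inv_eq_iff_eq.2 (k.2.1.2.trans (((mY _).1 y.2).2 _ n0).symm)) (fun x hx => by
        obtain ⟨w, hw⟩ := fs ⟨x, mem_compl.2 hx⟩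
        have hw : w.1 p = x := congrArg Subtype.val hw
        have e : k.1 * w.1 = w.1 * k.1 := congrArg Subtype.val (c ⟨w.1, yl w.2⟩ w.2)
        refine Perm.inv_eq_iff_eq.2 ?_
        rw [← hw, ← Perm.mul_apply, e, Perm.mul_apply, ← hy, ← Perm.mul_apply, cm, Perm.mul_apply]) ha⟩
    exact (show k.1 ∈ Y0 by simpa using mul_mem y.2 m)
  · have a := K.index_mul_card
    have b := φ.ker.index_mul_card
    have : Nontrivial {x : O // x.1 ≠ none ∧ x.1 ≠ some 0} := Fintype.one_lt_card_iff_nontrivial.1 (by omega)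
    have c := two_mul_nat_card_alternatingGroup (α := {x : O // x.1 ≠ none ∧ x.1 ≠ some 0})
    rw [Subgroup.index_ker, MonoidHom.range_eq_top.2 su, Subgroup.card_top, show φ.ker = (Y0.subgroupOf Spor.M22).subgroupOf K from
      Subgroup.ext ke, Nat.card_congr (Subgroup.subgroupOfEquivOfLe YK).toEquiv, cY] at b
    rw [Nat.card_perm, Nat.card_eq_fintype_card (α := {x : O // _}), ca] at c
    rw [H14.card_M22, ← b, show Nat.card (alternatingGroup {x : O // x.1 ≠ none ∧ x.1 ≠ some 0}) = 360 by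
      simp only [Nat.factorial] at c; omega] at a
    omega

theorem c384 : Cfsg.Agent.H06.W.C384Stmt := by
  intro y y2 y1
  have o2 : orderOf y.1 = 2 := orderOf_eq_prime (by rw [pow_two]; exact congrArg Subtype.val y2) fun e => y1 (Subtype.ext e)
  have hF := (Cfsg.Agent.S5394.result.1 y.1 y.2.1.1 o2).resolve_right fun e => e none y.2.1.2
  obtain ⟨K, Y, α, _, _, φ, eK, mY, ca, su, ke, YK, cY, Y2, cen, iK⟩ :=
    con hF (mem_filter.2 ⟨mem_univ _, y.2.1.2⟩) (mem_filter.2 ⟨mem_univ _, y.2.2⟩)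
  have hx := _root_.H07.JH.hx ca φ su ke YK cY Y2 cen
  have yY : y ∈ Y := (mY y).2 fun x hx => (mem_filter.1 hx).2
  have le : Subgroup.centralizer ({y} : Set Spor.M22) ≤ K := fun g hg => eK ▸ eq_of_subset_of_card_le (fun x hx => by
    obtain ⟨p, hp, rfl⟩ := mem_smul_finset.1 hx
    have e : g.1 * y.1 = y.1 * g.1 := congrArg Subtype.val (Subgroup.mem_centralizer_singleton_iff.1 hg)
    refine mem_filter.2 ⟨mem_univ _, ?_⟩
    show y.1 (g.1 p) = g.1 p
    rw [← Perm.mul_apply, ← e, Perm.mul_apply, (mem_filter.1 hp).2]) (card_smul_finset _ _).ge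
  let _ : MulAction K Spor.M22 := MulAction.compHom _ ((MulAut.conj (G := Spor.M22)).comp K.subtype)
  have es : MulAction.stabilizer K y = (Subgroup.centralizer ({y} : Set Spor.M22)).subgroupOf K := Subgroup.ext fun k =>
    mul_inv_eq_iff_eq_mul.trans (Subgroup.mem_centralizer_singleton_iff (g := y) (k := k.1)).symm
  have c := (MulAction.stabilizer K y).index_mul_card
  have l : ((Y : Set Spor.M22) \ {1}).ncard ≤ (MulAction.orbit K y).ncard := Set.ncard_le_ncard fun x hx' => by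
    obtain ⟨k, a, b⟩ := hx.tr y yY x hx'.1 y1 hx'.2
    exact ⟨⟨k, a⟩, b⟩
  rw [Set.ncard_diff_singleton_of_mem (one_mem Y), show (Y : Set Spor.M22).ncard = 16 from cY] at l
  have d := K.index_mul_card
  rw [MulAction.index_stabilizer, es, Nat.card_congr (Subgroup.subgroupOfEquivOfLe le).toEquiv] at c
  rw [iK, H14.card_M22, ← c] at d
  show Nat.card (Subgroup.centralizer ({y} : Set Spor.M22)) ≤ 384
  nlinarith

end H25.WM
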