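import Cfsg.Agent.H23.Y0
import Cfsg.Agent.H29.KJ1

/-! S5569, part P2: every involution of `M₂₄` is conjugate into a subgroup of order 64 and exponent 2. -/

set_option autoImplicit false

namespace H25.YP2
open _root_.Cfsg Subgroup MulAction
universe u

theorem p2 : Cfsg.Agent.H23.Y.P2Stmt.{u} := by
  intro X _ _ N P _ ⟨e⟩ c hP x hx
  let π : X →* M24 := e.toMonoidHom.comp (QuotientGroup.mk' N)
  have πs : Function.Surjective π := e.surjective.comp (QuotientGroup.mk'_surjective _)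
  have πk : ∀ g, π g = 1 ↔ g ∈ N := fun g => e.map_eq_one_iff.trans (QuotientGroup.eq_one_iff g)
  by_cases x1 : π x = 1
  · exact ⟨1, 1, one_mem P, x, (πk x).1 x1, by simp⟩
  have cE : Nat.card (P.map π) = 64 := by rw [← map_map, card_map_of_injective e.injective, c]
  have sq : ∀ g ∈ P.map π, g * g = 1 := by
    rintro _ ⟨p, hp, rfl⟩
    rw [← map_mul, (πk _).2 (hP p hp)]
  have o2 : ∀ g : M24, g * g = 1 → g ≠ 1 → orderOf g.1 = 2 := fun g s h =>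
    orderOf_eq_prime (by rw [pow_two]; exact congrArg Subtype.val s) fun r => h (Subtype.ext r)
  obtain ⟨g, hg, g1, gi⟩ : ∃ g ∈ P.map π, g ≠ 1 ∧ ((∀ p, g.1 p ≠ p) ↔ ∀ p, (π x).1 p ≠ p) := by
    obtain ⟨⟨a, a1, a2, a3⟩, b, b1, b2, b3⟩ := _root_.H29.KJ.both _ cE sq
    by_cases h : ∀ p, (π x).1 p ≠ p
    exacts [⟨a, a1, a2, iff_of_true a3 h⟩, ⟨b, b1, b2, iff_of_false b3 h⟩]
  obtain ⟨k, hk, r⟩ := Cfsg.Agent.S5394.result.2.2.2 _ g.2 _ (π x).2 (o2 g (sq g hg) g1)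
    (o2 _ (by rw [← map_mul, (πk _).2 hx]) x1) gi
  obtain ⟨y, hy⟩ := πs ⟨k, hk⟩
  obtain ⟨p, hp, rfl⟩ := hg
  have r' : π y * π p * (π y)⁻¹ = π x := by rw [hy]; exact Subtype.ext r
  refine ⟨y⁻¹, p, hp, p⁻¹ * (y⁻¹ * x * y⁻¹⁻¹), (πk _).1 ?_, by group⟩
  simp only [map_mul, map_inv, ← r']
  group

end H25.YP2
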