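import Mathlib
import Cfsg.Agent.H25.ZD1

/-!
# Theorem ZD: the interface (helper25)

`Gen n` (the theorem for groups of order `< n`), `Thm`, `End` (the endgame for a simple minimal counterexample).
-/

set_option autoImplicit false

open Cfsg BG MulAction H25.BE

namespace H25.ZD

universe u

/-- theorem ZD for groups of order less than `n` -/
def Gen (n : ℕ) : Prop :=
  ∀ (G : Type u) [Group G] [Finite G] (Ω : Type u) [MulAction G Ω] (Z : Set G) (φ : G → Ω), Nat.card G < n →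
    H05.PD Z φ → (∀ s ∈ Z, ∀ t ∈ Z, s ≠ t → Commute s t → s * t ∈ Z) → R2z Z (⊤ : Subgroup G) →
    (∃ s ∈ Z, ∃ g : G, g • φ s ≠ φ s) → ∀ w ∈ Lz Z (⊤ : Subgroup G), orderOf w = 2 → w ∈ Z

/-- theorem ZD -/
def Thm : Prop := ∀ n, Gen.{u} n

/-- the endgame -/
def End : Prop :=
  ∀ (G : Type u) [Group G] [Finite G] (Ω : Type u) [MulAction G Ω] (Z : Set G) (φ : G → Ω), MC Z φ →
    Gen.{u} (Nat.card G) → ∀ t : G, orderOf t = 2 → t ∈ Z

end H25.ZD
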